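import Mathlib.GroupTheory.PGroup
import Mathlib.Algebra.Group.Subgroup.Finite
import Mathlib.GroupTheory.Subgroup.Centralizer
import Cfsg.Agent.PGroup.ClassTwo

/-!
Baer's trick: a class two group of odd order carries an abelian group structure with the same
automorphisms; hence a fixed point statement for two groups of automorphisms.
-/

set_option linter.style.haveILetI false

namespace Cfsg.Agent.OddPre.BaerFixed

open scoped commutatorElement

/-- If `E` is a `p`-group of automorphisms normalising a non-trivial `p'`-group `Q` of automorphisms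
of a class two `p`-group of odd order, some fixed point of `E` is moved by `Q`. -/
theorem exists_fixed_moved {M : Type*} [Group M] [Finite M] {p : ℕ} [hp : Fact p.Prime]
    (hp2 : p ≠ 2) (hM : IsPGroup p M) (hc : commutator M ≤ Subgroup.center M)
    (Q E : Subgroup (MulAut M)) (hQ : (Nat.card Q).Coprime p) (hE : IsPGroup p E)
    (hEQ : E ≤ Subgroup.normalizer (Q : Set (MulAut M))) (hne : Q ≠ ⊥) :
    ∃ x : M, (∀ e ∈ E, e x = x) ∧ ∃ q ∈ Q, q x ≠ x := by
  haveI : Finite (MulAut M) := Finite.of_injective (fun f : MulAut M => (f : M → M))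
    DFunLike.coe_injective
  obtain ⟨k, hk⟩ := IsPGroup.iff_card.1 hM
  set n := Nat.card M with hn
  have hodd : Odd n := hk ▸ (hp.out.odd_of_ne_two hp2).pow
  obtain ⟨d, hd⟩ := hodd
  set m := d + 1 with hm
  have hcen : ∀ x y : M, ⁅x, y⁆ ∈ Subgroup.center M := fun x y =>
    hc (Subgroup.commutator_mem_commutator (Subgroup.mem_top x) (Subgroup.mem_top y))
  have hcc : ∀ x y z : M, Commute (⁅x, y⁆ ^ m) z := fun x y z =>
    (show Commute ⁅x, y⁆ z from (Subgroup.mem_center_iff.1 (hcen x y) z).symm).pow_left m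
  have h2m : ∀ c : M, c ^ m * c ^ m = c := by
    intro c
    rw [← pow_add, show m + m = n + 1 by omega, pow_succ, hn, pow_card_eq_one', one_mul]
  let add' : M → M → M := fun x y => x * y * ⁅y, x⁆ ^ m
  have addc : ∀ x y, add' x y = add' y x := by
    intro x y
    have h1 : y * x = ⁅y, x⁆ * (x * y) := by simp only [commutatorElement_def]; group
    have h2 : x * y * ⁅y, x⁆ ^ m = ⁅y, x⁆ ^ m * (x * y) := (hcc y x (x * y)).eq.symm
    change x * y * ⁅y, x⁆ ^ m = y * x * ⁅x, y⁆ ^ m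
    rw [← commutatorElement_inv y x, inv_pow, eq_mul_inv_iff_mul_eq, mul_assoc, h2m, h1]
    exact ((Subgroup.mem_center_iff.1 (hcen y x)) (x * y))
  have adda : ∀ x y z, add' (add' x y) z = add' x (add' y z) := by
    intro x y z
    have hpc : ∀ a b : M, ⁅a, b⁆ ^ m ∈ Subgroup.center M := fun a b => pow_mem (hcen a b) m
    have e1 : ⁅z, x * y * ⁅y, x⁆ ^ m⁆ = ⁅z, x⁆ * ⁅z, y⁆ := by
      rw [PGroup.commutatorElement_mul_right (hcen _ _), PGroup.commutatorElement_mul_right (hcen _ _),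
        show ⁅z, ⁅y, x⁆ ^ m⁆ = 1 from commutatorElement_eq_one_iff_mul_comm.2
          (Subgroup.mem_center_iff.1 (hpc y x) z), mul_one]
    have e2 : ⁅y * z * ⁅z, y⁆ ^ m, x⁆ = ⁅y, x⁆ * ⁅z, x⁆ := by
      rw [PGroup.commutatorElement_mul_left (hcen _ _), PGroup.commutatorElement_mul_left (hcen _ _),
        show ⁅⁅z, y⁆ ^ m, x⁆ = 1 from commutatorElement_eq_one_iff_mul_comm.2 (hcc z y x).eq, mul_one]
    change x * y * ⁅y, x⁆ ^ m * z * ⁅z, x * y * ⁅y, x⁆ ^ m⁆ ^ m =
      x * (y * z * ⁅z, y⁆ ^ m) * ⁅y * z * ⁅z, y⁆ ^ m, x⁆ ^ m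
    rw [e1, e2, (show Commute ⁅z, x⁆ ⁅z, y⁆ from (Subgroup.mem_center_iff.1 (hcen z y) _)).mul_pow,
      (show Commute ⁅y, x⁆ ⁅z, x⁆ from (Subgroup.mem_center_iff.1 (hcen z x) _)).mul_pow]
    calc x * y * ⁅y, x⁆ ^ m * z * (⁅z, x⁆ ^ m * ⁅z, y⁆ ^ m)
        = x * y * (⁅y, x⁆ ^ m * z) * (⁅z, x⁆ ^ m * ⁅z, y⁆ ^ m) := by group
      _ = x * y * z * (⁅y, x⁆ ^ m * ⁅z, x⁆ ^ m * ⁅z, y⁆ ^ m) := by rw [(hcc y x z).eq]; group
      _ = x * y * z * (⁅z, y⁆ ^ m * (⁅y, x⁆ ^ m * ⁅z, x⁆ ^ m)) := by rw [(hcc z y _).eq]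
      _ = x * (y * z * ⁅z, y⁆ ^ m) * (⁅y, x⁆ ^ m * ⁅z, x⁆ ^ m) := by group
  letI iA : AddCommGroup M :=
    { add := add'
      zero := 1
      neg := fun x => x⁻¹
      nsmul := @nsmulRec M ⟨1⟩ ⟨add'⟩
      zsmul := @zsmulRec M ⟨1⟩ ⟨add'⟩ ⟨fun x => x⁻¹⟩ (@nsmulRec M ⟨1⟩ ⟨add'⟩)
      add_assoc := adda
      zero_add := fun x => show add' 1 x = x by simp [add']
      add_zero := fun x => show add' x 1 = x by simp [add']
      neg_add_cancel := fun x => show add' x⁻¹ x = 1 by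
        simp [add', commutatorElement_def, mul_assoc]
      add_comm := addc }
  have hadd : ∀ x y : M, x + y = x * y * ⁅y, x⁆ ^ m := fun _ _ => rfl
  have hzero : (0 : M) = 1 := rfl
  let f : MulAut M → (M →+ M) := fun σ =>
    { toFun := σ
      map_zero' := map_one σ
      map_add' := fun x y => by
        change σ (x * y * ⁅y, x⁆ ^ m) = σ x * σ y * ⁅σ y, σ x⁆ ^ m
        rw [map_mul, map_mul, map_pow, map_commutatorElement] }
  haveI : Fintype Q := Fintype.ofFinite _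
  let τ : M →+ M := ∑ q : Q, f (q : MulAut M)
  have hτ : ∀ x, τ x = ∑ q : Q, (q : MulAut M) x := fun x => by simp [τ, f]
  let W : AddSubgroup M := τ.ker
  have hτq : ∀ (q : Q) x, τ ((q : MulAut M) x) = τ x := by
    intro q x
    rw [hτ, hτ]
    exact Fintype.sum_equiv (Equiv.mulRight q) _ _ (fun r => by simp)
  have hτe : ∀ e ∈ E, ∀ x, τ (e x) = e (τ x) := by
    intro e he x
    rw [hτ, hτ]
    change _ = f e (∑ q : Q, (q : MulAut M) x)
    rw [map_sum]
    let c : Q ≃ Q :=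
      { toFun := fun q => ⟨e⁻¹ * q * e, (Subgroup.mem_normalizer_iff''.1 (hEQ he) q).1 q.2⟩
        invFun := fun q => ⟨e * q * e⁻¹, (Subgroup.mem_normalizer_iff.1 (hEQ he) q).1 q.2⟩
        left_inv := fun q => Subtype.ext (by group)
        right_inv := fun q => Subtype.ext (by group) }
    refine Fintype.sum_equiv c _ _ (fun q => ?_)
    change (q : MulAut M) (e x) = e ((e⁻¹ * (q : MulAut M) * e) x)
    simp
  have hfix0 : ∀ x ∈ W, (∀ q ∈ Q, q x = x) → x = 0 := by
    intro x hx hq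
    have h1 : τ x = 0 := hx
    rw [hτ, Finset.sum_congr rfl (fun (q : Q) _ => hq q q.2), Finset.sum_const, Finset.card_univ,
      ← Nat.card_eq_fintype_card] at h1
    have h2 : addOrderOf x ∣ Nat.card Q := addOrderOf_dvd_of_nsmul_eq_zero h1
    exact AddMonoid.addOrderOf_eq_one_iff.1 (Nat.eq_one_of_dvd_coprimes (hQ.pow_right k) h2
      (hk ▸ hn ▸ addOrderOf_dvd_natCard x))
  obtain ⟨q0, hq0, hq01⟩ : ∃ q ∈ Q, q ≠ 1 := by
    by_contra h
    push Not at h
    exact hne ((Subgroup.eq_bot_iff_forall Q).2 h)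
  obtain ⟨x0, hx0⟩ : ∃ x, q0 x ≠ x := by
    by_contra h
    push Not at h
    exact hq01 (MulEquiv.ext h)
  letI act : MulAction E W :=
    { smul := fun e w => ⟨(e : MulAut M) w, by
        change τ ((e : MulAut M) w) = 0
        rw [hτe e e.2, (show τ (w : M) = 0 from w.2)]
        exact map_one (e : MulAut M)⟩
      one_smul := fun w => Subtype.ext rfl
      mul_smul := fun e e' w => Subtype.ext rfl }
  have hW0 : (x0 - q0 x0 : M) ∈ W ∧ x0 - q0 x0 ≠ 0 := by
    refine ⟨?_, fun h => hx0 (sub_eq_zero.1 h).symm⟩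
    change τ (x0 - q0 x0) = 0
    rw [map_sub, hτq ⟨q0, hq0⟩, sub_self]
  obtain ⟨j, -, hj⟩ : ∃ j ≤ k, Nat.card W = p ^ j :=
    (Nat.dvd_prime_pow hp.out).1 (hk ▸ hn ▸ W.card_addSubgroup_dvd_card)
  have hpW : p ∣ Nat.card W := by
    rcases j with _ | j
    · exfalso
      rw [pow_zero] at hj
      have : Subsingleton W := (Nat.card_eq_one_iff_unique.1 hj).1
      exact hW0.2 (congrArg Subtype.val (Subsingleton.elim (⟨_, hW0.1⟩ : W) 0))
    · rw [hj]; exact dvd_pow_self p j.succ_ne_zero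
  obtain ⟨w, hw, hw0⟩ := hE.exists_fixed_point_of_prime_dvd_card_of_fixed_point (α := W) hpW
    (a := 0) (fun e => Subtype.ext (map_one (e : MulAut M)))
  refine ⟨w, fun e he => congrArg Subtype.val (hw ⟨e, he⟩), ?_⟩
  by_contra h
  push Not at h
  exact hw0 (Subtype.ext (hfix0 w w.2 h).symm)

end Cfsg.Agent.OddPre.BaerFixed
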