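import Cfsg.Prelude.Def_CaseTheorems
import Cfsg.Prelude.Def_OddOrderLocal
import Cfsg.Agent.OddLocal.FittingParts
import Cfsg.Agent.OddLocal.PConstraint
import Cfsg.Agent.OddPre.Stability
import Cfsg.Agent.Coprime.Generation
import Cfsg.Agent.Cores.Pi
import Cfsg.Agent.Signalizer.Functor
import Cfsg.Agent.SolvStruct.Hall

/-!
Invariant subgroups of prime power order relative to the Fitting subgroup of a maximal local
subgroup with at least two primes in its Fitting subgroup.
-/

set_option autoImplicit false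

namespace Cfsg.Agent.OddPre.BenderInv

open Subgroup
open OddLocal

variable {G : Type*} [Group G] [Finite G]

/-- Nilpotent normal subgroups of `H` lie in `F(H)`. -/
theorem le_fittingOf_of_nilpotent {H Y : Subgroup G} (hYH : Y ≤ H)
    (hn : H ≤ normalizer (Y : Set G)) (hY : Group.IsNilpotent Y) : Y ≤ Cfsg.fittingOf H := by
  have h : Y.subgroupOf H ≤ Cfsg.fittingSubgroup H :=
    Cores.le_fittingSubgroup ((normal_subgroupOf_iff_le_normalizer hYH).2 hn)
      (Group.nilpotent_of_surjective (subgroupOfEquivOfLe hYH).symm.toMonoidHom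
        (subgroupOfEquivOfLe hYH).symm.surjective)
  have h2 := map_mono (f := H.subtype) h
  rwa [subgroupOf_map_subtype, inf_eq_left.2 hYH] at h2

omit [Finite G] in
theorem normalizer_le_normalizer_fittingOf (Y : Subgroup G) :
    normalizer (Y : Set G) ≤ normalizer (Cfsg.fittingOf Y : Set G) :=
  Coprime.normalizer_le_normalizer_map_characteristic Y (Cfsg.fittingSubgroup Y)

/-- A solvable subgroup of `C_H(F(H))` normalised by it lies in `F(H)`. -/
theorem le_fittingOf_of_normal_centralizer {H S : Subgroup G} (hS : Group.IsSolvable S)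
    (hSX : S ≤ H ⊓ centralizer (Cfsg.fittingOf H : Set G))
    (hn : H ⊓ centralizer (Cfsg.fittingOf H : Set G) ≤ normalizer (S : Set G)) :
    S ≤ Cfsg.fittingOf H := by
  set F := Cfsg.fittingOf H with hF
  set X := H ⊓ centralizer (F : Set G) with hX
  have hHX : H ≤ normalizer (X : Set G) :=
    Signalizer.le_normalizer_inf le_normalizer
      ((le_normalizer_fittingOf' H).trans (normalizer_le_normalizer_centralizer _))
  have h1 : Cfsg.fittingOf S ≤ Cfsg.fittingOf X :=
    le_fittingOf_of_nilpotent ((fittingOf_le' S).trans hSX)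
      (hn.trans (normalizer_le_normalizer_fittingOf S)) (fittingOf_isNilpotent S)
  have h2 : Cfsg.fittingOf X ≤ F :=
    le_fittingOf_of_nilpotent ((fittingOf_le' X).trans inf_le_left)
      (hHX.trans (normalizer_le_normalizer_fittingOf X)) (fittingOf_isNilpotent X)
  intro s hs
  refine (h1.trans h2) ⟨⟨s, hs⟩, Cores.centralizer_fittingSubgroup_le (G := S) ?_, rfl⟩
  rw [mem_centralizer_iff]
  intro y hy
  exact Subtype.ext (mem_centralizer_iff.1 (mem_inf.1 (hSX hs)).2 _
    ((h1.trans h2) ⟨y, hy, rfl⟩))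

/-- Bender's uniqueness of maximal invariant `q`-subgroups. -/
theorem unique_invariant_sylow (H : Subgroup G)
    (hHmax : ∀ L : Subgroup G, Cfsg.IsLocalSubgroup L → H ≤ L → L = H)
    (hF2 : 2 ≤ (Nat.card (Cfsg.fittingOf H)).primeFactors.card)
    (M : Subgroup G) (hM : M ≤ Cfsg.fittingOf H)
    (hCM : Cfsg.fittingOf H ⊓ Subgroup.centralizer (M : Set G) ≤ M)
    (R : Subgroup G) (hR : Group.IsSolvable R) (hMR : M ≤ Subgroup.normalizer (R : Set G))
    (hXR : H ⊓ Subgroup.centralizer (Cfsg.fittingOf H : Set G) ≤ Subgroup.normalizer (R : Set G))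
    (q : ℕ) [Fact q.Prime] (hq : ¬ q ∣ Nat.card (Cfsg.fittingOf H)) :
    ∃! Q : Subgroup G, Q ∈ Cfsg.maxInvSubgroups R M {q} ∧
      (∀ Q' : Subgroup G, Q' ∈ Cfsg.maxInvSubgroups R M {q} →
        Q' ≤ Cfsg.piCoreOf (Cfsg.primesNotDvd (Nat.card (Cfsg.fittingOf H))) R ∧
        ¬ q ∣ Q'.relIndex (Cfsg.piCoreOf (Cfsg.primesNotDvd (Nat.card (Cfsg.fittingOf H))) R)) := by
  have hqp : q.Prime := Fact.out
  set F := Cfsg.fittingOf H with hFdef
  set π := Cfsg.primesNotDvd (Nat.card F) with hπ
  set K := Cfsg.piCoreOf π R with hKdef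
  have hFH : F ≤ H := fittingOf_le' H
  have hMH : M ≤ H := hM.trans hFH
  have hFn : H ≤ normalizer (F : Set G) := le_normalizer_fittingOf' H
  -- facts about the centres of the primary parts of `F`
  have hZN : ∀ p : ℕ, p.Prime → p ∣ Nat.card F → normalizer (Zc H p : Set G) = H := by
    intro p hp hd
    have : Fact p.Prime := ⟨hp⟩
    exact hHmax _ ⟨p, Zc H p, hp, isPGroup_Zc H p, Zc_ne_bot ((Fp_ne_bot_iff H).2 hd), rfl⟩
      (le_normalizer_Zc H p)
  have hCZ : ∀ p : ℕ, p.Prime → p ∣ Nat.card F → centralizer (Zc H p : Set G) ≤ H :=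
    fun p hp hd => (centralizer_le_normalizer _).trans (hZN p hp hd).le
  have hZM : ∀ p : ℕ, p.Prime → Zc H p ≤ M := by
    intro p hp z hz
    have : Fact p.Prime := ⟨hp⟩
    exact hCM (mem_inf.2 ⟨Zc_le_fittingOf H p hz,
      mem_centralizer_iff.2 fun m hm => Zc_commute hz (hM hm)⟩)
  obtain ⟨p₀, hp₀, -⟩ : ∃ p₀ ∈ (Nat.card F).primeFactors, True := by
    obtain ⟨a, ha⟩ := Finset.card_pos.1 (lt_of_lt_of_le two_pos hF2)
    exact ⟨a, ha, trivial⟩
  rw [Nat.mem_primeFactors] at hp₀
  have hCMH : centralizer (M : Set G) ≤ H :=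
    (centralizer_le (hZM p₀ hp₀.1)).trans (hCZ p₀ hp₀.1 hp₀.2.1)
  have hXR0 : (H ⊓ centralizer (F : Set G)) ⊓ R ≤ F :=
    le_fittingOf_of_normal_centralizer (Coprime.isSolvable_of_le inf_le_right hR) inf_le_left
      (Signalizer.le_normalizer_inf le_normalizer hXR)
  -- no nontrivial element of `R ⊓ H` of order prime to `|F|` centralises `M`
  have hkill : ∀ y ∈ R, y ∈ H → (orderOf y).Coprime (Nat.card F) →
      (∀ m ∈ M, y * m = m * y) → y = 1 := by
    intro y hyR hyH hco hcomm
    have : Group.IsNilpotent F := fittingOf_isNilpotent H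
    have hfix := centralizes_of_centralizer_le y F M hM
      (fun v hv => (mem_normalizer_iff.1 (hFn hyH) v).1 hv) hco
      (fun m hm => by rw [hcomm m hm, mul_inv_cancel_right]) hCM
    have hyC : y ∈ centralizer (F : Set G) := by
      rw [mem_centralizer_iff]
      intro v hv
      exact (mul_inv_eq_iff_eq_mul.1 (hfix v hv)).symm
    have hyF : y ∈ F := hXR0 (mem_inf.2 ⟨mem_inf.2 ⟨hyH, hyC⟩, hyR⟩)
    exact orderOf_eq_one_iff.1 (Nat.eq_one_of_dvd_coprimes hco dvd_rfl
      (Subgroup.orderOf_dvd_natCard F hyF))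
  -- the core `K`
  have hKR : K ≤ R := piCoreOf_le π R
  have hKpi : IsPi π K := isPi_piCoreOf π R
  have hKs : Group.IsSolvable K := Coprime.isSolvable_of_le hKR hR
  have hKco : (Nat.card K).Coprime (Nat.card F) :=
    Nat.coprime_of_dvd fun r hr hd hrF => (hKpi r hr hd).2 hrF
  have hMK : M ≤ normalizer (K : Set G) :=
    hMR.trans (Coprime.normalizer_le_normalizer_map_characteristic R (Cfsg.piCore π R))
  have hMKco : (Nat.card M).Coprime (Nat.card K) :=
    (hKco.coprime_dvd_right (card_dvd_of_le hM)).symm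
  have hCKM : ∀ c ∈ K ⊓ centralizer (M : Set G), c = 1 := by
    intro c hc
    obtain ⟨hcK, hcM⟩ := mem_inf.1 hc
    exact hkill c (hKR hcK) (hCMH hcM) (hKco.coprime_dvd_left (Subgroup.orderOf_dvd_natCard K hcK))
      (fun m hm => (mem_centralizer_iff.1 hcM m hm).symm)
  -- invariant `q`-subgroups lie in `K`
  have hUK : ∀ U : Subgroup G, U ≤ R → IsPGroup q U → M ≤ normalizer (U : Set G) → U ≤ K := by
    intro U hUR hUq hUM
    obtain ⟨i, hi⟩ := IsPGroup.iff_card.1 hUq
    have hUco : (Nat.card U).Coprime (Nat.card F) := by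
      rw [hi]; exact (hqp.coprime_iff_not_dvd.2 hq).pow_left i
    have hCU : ∀ p : ℕ, p.Prime → p ∣ Nat.card F → U ⊓ centralizer (Zc H p : Set G) = ⊥ := by
      intro p hp hd
      rw [eq_bot_iff]
      intro y hy
      obtain ⟨hyU, hyC⟩ := mem_inf.1 hy
      have hyH := hCZ p hp hd hyC
      refine Subgroup.mem_bot.2 (hkill y (hUR hyU) hyH
        (hUco.coprime_dvd_left (Subgroup.orderOf_dvd_natCard U hyU)) fun m hm => ?_)
      have h1 : y * m * y⁻¹ * m⁻¹ ∈ F :=
        mul_mem ((mem_normalizer_iff.1 (hFn hyH) m).1 (hM hm)) (inv_mem (hM hm))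
      have h2 : y * m * y⁻¹ * m⁻¹ ∈ U := by
        have := mul_mem hyU ((mem_normalizer_iff.1 (hUM hm) y⁻¹).1 (inv_mem hyU))
        simpa [mul_assoc] using this
      have h3 := eq_one_of_mem_coprime hUco h2 h1
      rwa [mul_inv_eq_one, mul_inv_eq_iff_eq_mul] at h3
    set L := R ⊔ M with hL
    have hMnil : Group.IsNilpotent M := SolvStruct.isNilpotent_of_le hM (fittingOf_isNilpotent H)
    have : Group.IsSolvable L := Signalizer.isSolvable_sup hMR hR inferInstance
    have hRL : R ≤ L := le_sup_left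
    have hUL : U ≤ L := hUR.trans hRL
    set Pc := fun r : ℕ => (Cfsg.pPrimeCore r L).map L.subtype with hPc
    have hUP : ∀ r ∈ (Nat.card F).primeFactors, U ≤ Pc r := by
      intro r hr
      rw [Nat.mem_primeFactors] at hr
      have : Fact r.Prime := ⟨hr.1⟩
      obtain ⟨p, hp, hpr⟩ : ∃ p ∈ (Nat.card F).primeFactors, p ≠ r := by
        by_contra! hall
        have : (Nat.card F).primeFactors.card ≤ 1 :=
          Finset.card_le_one.mpr fun a ha b hb => (hall a ha).trans (hall b hb).symm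
        omega
      rw [Nat.mem_primeFactors] at hp
      have : Fact p.Prime := ⟨hp.1⟩
      have hZpL : Zc H p ≤ L := (hZM p hp.1).trans le_sup_right
      have hZrL : Zc H r ≤ L := (hZM r hr.1).trans le_sup_right
      have hW : (Zc H p).subgroupOf L ≤ Cfsg.pPrimeCore r L := by
        refine le_pPrimeCore_of_normalized_by_centralizer (B := (Zc H r).subgroupOf L)
          ((isPGroup_Zc H r).of_equiv (subgroupOfEquivOfLe hZrL).symm) ?_ ?_ ?_
        · intro w hw
          rw [mem_centralizer_iff]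
          intro b hb
          exact Subtype.ext (Zc_commute (H := H) (q := p) hw (Zc_le_fittingOf H r hb))
        · intro c hc
          have hcH : (c : G) ∈ H := hCZ r hr.1 hr.2.1 (mem_centralizer_iff.2 fun b hb => by
            exact congrArg Subtype.val (mem_centralizer_iff.1 hc ⟨b, hZrL hb⟩ hb))
          rw [mem_normalizer_iff]
          intro w
          exact mem_normalizer_iff.1 (le_normalizer_Zc H p hcH) (w : G)
        · obtain ⟨j, hj⟩ := IsPGroup.iff_card.1 (isPGroup_Zc H p)
          rw [Nat.card_congr (subgroupOfEquivOfLe hZpL).toEquiv, hj]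
          exact ((Nat.coprime_primes hp.1 hr.1).2 hpr).pow_left j
      have hLP : L ≤ normalizer (Pc r : Set G) := le_normalizer_map_subtype _
      have hcom : ⁅U, Zc H p⁆ ≤ Pc r := by
        rw [commutator_le]
        intro u hu z hz
        have hzP : z ∈ Pc r := ⟨⟨z, hZpL hz⟩, hW hz, rfl⟩
        rw [commutatorElement_def]
        exact mul_mem ((mem_normalizer_iff.1 (hLP (hUL hu)) z).1 hzP) (inv_mem hzP)
      have hsup := Coprime.commutator_sup_centralizer (A := Zc H p) (K := U)
        ((hZM p hp.1).trans hUM) ((hUco.coprime_dvd_right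
          (card_dvd_of_le (Zc_le_fittingOf H p))).symm)
        (Or.inr (Coprime.isSolvable_of_le hUR hR))
      rw [hCU p hp.1 hp.2.1, sup_bot_eq] at hsup
      exact hsup.ge.trans hcom
    set T := R ⊓ ⨅ r ∈ (Nat.card F).primeFactors, Pc r with hT
    refine le_trans (le_inf hUR (le_iInf₂ hUP)) (le_piCoreOf inf_le_left ?_ ?_)
    · intro g hg
      rw [mem_normalizer_iff]
      intro v
      simp only [mem_inf, mem_iInf]
      have hgn := fun r => mem_normalizer_iff.1 (le_normalizer_map_subtype (Cfsg.pPrimeCore r L) (hRL hg)) v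
      exact and_congr (mem_normalizer_iff.1 (le_normalizer hg) v)
        ⟨fun h r hr => (hgn r).1 (h r hr), fun h r hr => (hgn r).2 (h r hr)⟩
    · intro r hr hd
      refine ⟨hr, fun hrF => ?_⟩
      have : Fact r.Prime := ⟨hr⟩
      have h1 : r ∣ Nat.card (Pc r) := hd.trans (card_dvd_of_le (inf_le_right.trans
        (iInf₂_le r (Nat.mem_primeFactors.2 ⟨hr, hrF, Nat.card_pos.ne'⟩))))
      rw [hPc, card_map_of_injective L.subtype_injective] at h1
      exact hr.ne_one (Nat.eq_one_of_dvd_coprimes (Cores.pPrimeCore_coprime (p := r) (G := L)) h1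
        dvd_rfl)
  -- the invariant Sylow subgroup of `K`
  have hs : Group.IsSolvable M ∨ Group.IsSolvable K := Or.inr hKs
  obtain ⟨P, hP⟩ := Coprime.exists_invariant_sylow q hMK hMKco hs
  set Q := (P : Subgroup K).map K.subtype with hQdef
  have huniq : ∀ P' : Sylow q K, M ≤ normalizer ((P' : Subgroup K).map K.subtype : Set G) →
      (P' : Subgroup K).map K.subtype = Q := by
    intro P' hP'
    obtain ⟨c, hc, hce⟩ := Coprime.exists_centralizer_conj_sylow hMK hMKco hs P P' hP hP'
    rw [hCKM c hc, map_one, one_smul] at hce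
    exact hce.symm
  have hall : ∀ U ∈ Cfsg.invSubgroups R M {q}, U ≤ Q := by
    rintro U ⟨hUR, hUpi, hUM⟩
    have hUq : IsPGroup q U := isPi_singleton_iff.1 hUpi
    obtain ⟨P', hle, hP'⟩ :=
      Coprime.exists_invariant_sylow_ge hMK hMKco hs (hUK U hUR hUq hUM) hUM hUq
    exact hle.trans (huniq P' hP').le
  have hQinv : Q ∈ Cfsg.invSubgroups R M {q} :=
    ⟨(map_subtype_le _).trans hKR, isPi_singleton_iff.2 (P.2.map _), hP⟩
  have hQmax : Q ∈ Cfsg.maxInvSubgroups R M {q} :=
    ⟨hQinv, fun U hU hle => le_antisymm (hall U hU) hle⟩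
  have hmaxeq : ∀ U ∈ Cfsg.maxInvSubgroups R M {q}, U = Q :=
    fun U hU => (hU.2 Q hQinv (hall U hU.1)).symm
  refine ⟨Q, ⟨hQmax, fun Q' hQ' => ?_⟩, fun Q' hQ' => hmaxeq Q' hQ'.1⟩
  rw [hmaxeq Q' hQ']
  refine ⟨map_subtype_le _, ?_⟩
  have e : Q.relIndex K = (P : Subgroup K).index := by
    rw [relIndex, subgroupOf, hQdef, comap_map_eq_self_of_injective K.subtype_injective]
  rw [e]
  exact P.not_dvd_index

end Cfsg.Agent.OddPre.BenderInv
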