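import Cfsg.Agent.OddPre.BaerFixed
import Cfsg.Agent.OddPre.Stability
import Cfsg.Agent.Coprime.Generation
import Cfsg.Agent.Cores.Basic
import Cfsg.Agent.PSolv.HallHigman

/-!
Invariant `p'`-subgroups of a `p`-constrained group for an abelian `p`-subgroup containing all
`p`-elements of its centraliser.
-/

set_option linter.style.haveILetI false

namespace Cfsg.Agent.OddPre.InvCore

open scoped commutatorElement

variable {G : Type*} [Group G] [Finite G] {p : ℕ} [hp : Fact p.Prime]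

/-- `p` odd: if the `p'`-group `Q` centralises the fixed points of the `p`-group `E`, which
normalises it, then it centralises the whole `p`-group. -/
theorem centralizes_odd (hp2 : p ≠ 2) {P Q E : Subgroup G} (hP : IsPGroup p P)
    (hQ : (Nat.card Q).Coprime p) (hE : IsPGroup p E) (hQP : Q ≤ Subgroup.normalizer (P : Set G))
    (hEP : E ≤ Subgroup.normalizer (P : Set G)) (hEQ : E ≤ Subgroup.normalizer (Q : Set G))
    (hC : Q ≤ Subgroup.centralizer ((P ⊓ Subgroup.centralizer (E : Set G) : Subgroup G) : Set G)) :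
    Q ≤ Subgroup.centralizer (P : Set G) := by
  by_contra hne
  obtain ⟨R, ⟨hRP, hQR, hER, hRne⟩, hmin⟩ := Set.Finite.exists_minimal
    (s := {R : Subgroup G | R ≤ P ∧ Q ≤ Subgroup.normalizer (R : Set G) ∧
      E ≤ Subgroup.normalizer (R : Set G) ∧ ¬ Q ≤ Subgroup.centralizer (R : Set G)})
    (Set.toFinite _) ⟨P, le_rfl, hQP, hEP, hne⟩
  have hsmall : ∀ U : Subgroup G, U ≤ R → U ≠ R → Q ≤ Subgroup.normalizer (U : Set G) →
      E ≤ Subgroup.normalizer (U : Set G) → Q ≤ Subgroup.centralizer (U : Set G) :=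
    fun U hU hUR h1 h2 => by_contra fun h3 =>
      hUR (le_antisymm hU (hmin ⟨hU.trans hRP, h1, h2, h3⟩ hU))
  have hRp : IsPGroup p R := hP.to_le hRP
  have hRne' : R ≠ ⊥ := by
    rintro rfl
    exact hRne fun q _ => Subgroup.mem_centralizer_iff.2 fun h hh => by simp [Subgroup.mem_bot.1 hh]
  have hcop : (Nat.card Q).Coprime (Nat.card R) := by
    obtain ⟨i, hi⟩ := IsPGroup.iff_card.1 hRp
    rw [hi]; exact hQ.pow_right i
  have hR'R : ⁅R, R⁆ ≤ R := Subgroup.commutator_le_self R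
  have hnormR' : ∀ X : Subgroup G, X ≤ Subgroup.normalizer (R : Set G) →
      X ≤ Subgroup.normalizer ((⁅R, R⁆ : Subgroup G) : Set G) := fun X hX =>
    (le_inf hX hX).trans (Coprime.normalizer_inf_le_normalizer_commutator R R)
  have hR'ne : ⁅R, R⁆ ≠ R := fun h =>
    hRne' (Coprime.eq_bot_of_commutator_eq hRp hRp Subgroup.le_normalizer h)
  have hQR' := hsmall _ hR'R hR'ne (hnormR' Q hQR) (hnormR' E hER)
  have hRQ : ⁅R, Q⁆ = R := by
    by_contra h
    refine hRne (Coprime.le_centralizer_of_commutator_commutator_eq_bot hQR hcop ?_)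
    rw [Subgroup.commutator_eq_bot_iff_le_centralizer, Subgroup.le_centralizer_iff]
    exact hsmall _ (Coprime.commutator_le_of_le_normalizer hQR) h
      (Coprime.le_normalizer_commutator_right R Q)
      ((le_inf hER hEQ).trans (Coprime.normalizer_inf_le_normalizer_commutator R Q))
  have hcen : ⁅R, ⁅R, R⁆⁆ = ⊥ := by
    have h1 : ⁅⁅R, Q⁆, ⁅R, R⁆⁆ = ⊥ := by
      apply Subgroup.commutator_commutator_eq_bot_of_rotate
      · rw [show ⁅Q, ⁅R, R⁆⁆ = ⊥ from Subgroup.commutator_eq_bot_iff_le_centralizer.2 hQR',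
          Subgroup.commutator_bot_left]
      · rw [Subgroup.commutator_eq_bot_iff_le_centralizer]
        have h2 : ⁅⁅R, R⁆, R⁆ ≤ ⁅R, R⁆ := Subgroup.commutator_mono hR'R le_rfl
        exact h2.trans (Subgroup.le_centralizer_iff.1 hQR')
    rwa [hRQ] at h1
  have hclass : commutator R ≤ Subgroup.center R := by
    intro x hx
    refine Subgroup.mem_center_iff.2 fun y => Subtype.ext ?_
    have hx' : (x : G) ∈ ⁅R, R⁆ := Subgroup.map_subtype_commutator R ▸ ⟨x, hx, rfl⟩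
    exact Subgroup.mem_centralizer_iff.1
      (Subgroup.le_centralizer_iff.1 (Subgroup.commutator_eq_bot_iff_le_centralizer.1 hcen) hx') y y.2
  let θQ : Q →* MulAut R := R.normalizerMonoidHom.comp (Subgroup.inclusion hQR)
  let θE : E →* MulAut R := R.normalizerMonoidHom.comp (Subgroup.inclusion hER)
  have hθne : θQ.range ≠ ⊥ := by
    intro h
    apply hRne
    intro q hq
    have h1 : Subgroup.inclusion hQR ⟨q, hq⟩ ∈ R.normalizerMonoidHom.ker :=
      MonoidHom.mem_ker.2 (Subgroup.mem_bot.1 (h ▸ ⟨⟨q, hq⟩, rfl⟩ : θQ ⟨q, hq⟩ ∈ (⊥ : Subgroup _)))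
    rwa [Subgroup.normalizerMonoidHom_ker, Subgroup.mem_subgroupOf] at h1
  have hnorm : θE.range ≤ Subgroup.normalizer (θQ.range : Set (MulAut R)) := by
    rintro _ ⟨e, rfl⟩
    have key : ∀ e : E, ∀ a ∈ θQ.range, θE e * a * (θE e)⁻¹ ∈ θQ.range := by
      rintro e _ ⟨q, rfl⟩
      refine ⟨⟨e * q * (e : G)⁻¹, (Subgroup.mem_normalizer_iff.1 (hEQ e.2) q).1 q.2⟩, ?_⟩
      simp only [θQ, θE, MonoidHom.coe_comp, Function.comp_apply, ← map_inv, ← map_mul]
      rfl
    refine Subgroup.mem_normalizer_iff.2 fun a => ⟨key e a, fun h => ?_⟩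
    have := key e⁻¹ _ h
    simpa [mul_assoc] using this
  obtain ⟨x, hxE, σ, ⟨q, rfl⟩, hq⟩ := BaerFixed.exists_fixed_moved hp2 hRp hclass θQ.range θE.range
    (hQ.coprime_dvd_left (Subgroup.card_range_dvd θQ))
    (hE.of_surjective θE.rangeRestrict θE.rangeRestrict_surjective) hnorm hθne
  apply hq
  have hxC : (x : G) ∈ P ⊓ Subgroup.centralizer (E : Set G) := by
    refine ⟨hRP x.2, Subgroup.mem_centralizer_iff.2 fun e he => ?_⟩
    have h1 : e * (x : G) * e⁻¹ = x := congrArg Subtype.val (hxE _ ⟨⟨e, he⟩, rfl⟩)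
    exact mul_inv_eq_iff_eq_mul.1 h1
  refine Subtype.ext ?_
  change (q : G) * (x : G) * (q : G)⁻¹ = x
  rw [← Subgroup.mem_centralizer_iff.1 (hC q.2) x hxC, mul_inv_cancel_right]

/-- Class two version (any `p`). -/
theorem centralizes_class_two {P Q E : Subgroup G} (hP : IsPGroup p P)
    (hQ : (Nat.card Q).Coprime p) (hE : IsPGroup p E) (hQP : Q ≤ Subgroup.normalizer (P : Set G))
    (hEP : E ≤ Subgroup.normalizer (P : Set G)) (hEQ : E ≤ Subgroup.normalizer (Q : Set G))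
    (hC : Q ≤ Subgroup.centralizer ((P ⊓ Subgroup.centralizer (E : Set G) : Subgroup G) : Set G))
    (hfaith : Q ⊓ Subgroup.centralizer (P : Set G) = ⊥)
    (hcl : ∀ x ∈ P, ∀ e ∈ E, ∀ z ∈ (P : Set G) ∪ (E : Set G), Commute ⁅x, e⁆ z) :
    Q ≤ Subgroup.centralizer (P : Set G) := by
  set D := P ⊓ Subgroup.centralizer (E : Set G) with hD
  obtain ⟨k, hk⟩ := IsPGroup.iff_card.1 (hP.to_le (inf_le_left : D ≤ P))
  have hmemD : ∀ x ∈ P, ∀ e ∈ E, ⁅x, e⁆ ∈ D := by
    intro x hx e he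
    refine ⟨?_, Subgroup.mem_centralizer_iff.2 fun f hf => (hcl x hx e he f (Or.inr hf)).eq.symm⟩
    rw [commutatorElement_def, mul_assoc, mul_assoc, ← mul_assoc e]
    exact mul_mem hx ((Subgroup.mem_normalizer_iff.1 (hEP he) _).1 (inv_mem hx))
  have hEQc : E ≤ Subgroup.centralizer (Q : Set G) := by
    intro e he
    refine Subgroup.mem_centralizer_iff.2 fun q hq => ?_
    set h := q⁻¹ * (e * q * e⁻¹) with hh
    have hhQ : h ∈ Q := mul_mem (inv_mem hq) ((Subgroup.mem_normalizer_iff.1 (hEQ he) q).1 hq)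
    have hh1 : h ∈ Q ⊓ Subgroup.centralizer (P : Set G) := by
      refine ⟨hhQ, Subgroup.mem_centralizer_iff.2 fun x hx => ?_⟩
      have hfix : ∀ z ∈ D, h * z * h⁻¹ = z := fun z hz => by
        rw [← Subgroup.mem_centralizer_iff.1 (hC hhQ) z hz, mul_inv_cancel_right]
      have h1 : h * x * h⁻¹ = x := by
        refine Cfsg.Agent.OddPre.commute_of_conj_mem_fixed h x D hfix ?_ ?_
        · have hei : e⁻¹ ∈ E := inv_mem he
          set d1 := ⁅x, e⁻¹⁆ with hd1
          have hd1D : d1 ∈ D := hmemD x hx _ hei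
          have hqx : q * x * q⁻¹ ∈ P := (Subgroup.mem_normalizer_iff.1 (hQP hq) x).1 hx
          set d2 := ⁅q * x * q⁻¹, e⁆ with hd2
          have hd2D : d2 ∈ D := hmemD _ hqx _ he
          have hqd : ∀ d ∈ D, q * d = d * q := fun d hd =>
            (Subgroup.mem_centralizer_iff.1 (hC hq) d hd).symm
          have hed : ∀ d ∈ D, e * d = d * e := fun d hd => Subgroup.mem_centralizer_iff.1 hd.2 e he
          have e1 : e⁻¹ * x * e = d1⁻¹ * x := by simp only [hd1, commutatorElement_def]; group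
          have e2 : e * (q * x * q⁻¹) * e⁻¹ = d2⁻¹ * (q * x * q⁻¹) := by
            simp only [hd2, commutatorElement_def]; group
          have e3 : (e * q * e⁻¹) * x * (e * q * e⁻¹)⁻¹ = d1⁻¹ * d2⁻¹ * (q * x * q⁻¹) := by
            calc (e * q * e⁻¹) * x * (e * q * e⁻¹)⁻¹ = e * (q * (e⁻¹ * x * e) * q⁻¹) * e⁻¹ := by group
              _ = e * (q * d1⁻¹ * x * q⁻¹) * e⁻¹ := by rw [e1]; group
              _ = e * (d1⁻¹ * q * x * q⁻¹) * e⁻¹ := by rw [hqd _ (inv_mem hd1D)]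
              _ = (e * d1⁻¹) * (q * x * q⁻¹) * e⁻¹ := by group
              _ = (d1⁻¹ * e) * (q * x * q⁻¹) * e⁻¹ := by rw [hed _ (inv_mem hd1D)]
              _ = d1⁻¹ * (e * (q * x * q⁻¹) * e⁻¹) := by group
              _ = d1⁻¹ * d2⁻¹ * (q * x * q⁻¹) := by rw [e2]; group
          have hdD : d1⁻¹ * d2⁻¹ ∈ D := mul_mem (inv_mem hd1D) (inv_mem hd2D)
          have hdx : Commute (d1⁻¹ * d2⁻¹) x :=
            ((hcl x hx _ hei x (Or.inl hx)).inv_left).mul_left
              ((hcl _ hqx _ he x (Or.inl hx)).inv_left)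
          have e4 : h * x * h⁻¹ = d1⁻¹ * d2⁻¹ * x := by
            calc h * x * h⁻¹ = q⁻¹ * ((e * q * e⁻¹) * x * (e * q * e⁻¹)⁻¹) * q := by
                  simp only [hh]; group
              _ = q⁻¹ * (d1⁻¹ * d2⁻¹) * (q * x) := by rw [e3]; group
              _ = q⁻¹ * ((d1⁻¹ * d2⁻¹) * q) * x := by group
              _ = q⁻¹ * (q * (d1⁻¹ * d2⁻¹)) * x := by rw [hqd _ hdD]
              _ = d1⁻¹ * d2⁻¹ * x := by group
          rw [e4, hdx.eq, inv_mul_cancel_left]
          exact hdD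
        · rw [hk]
          exact (hQ.coprime_dvd_left (Subgroup.orderOf_dvd_natCard Q hhQ)).pow_right k
      exact (mul_inv_eq_iff_eq_mul.1 h1).symm
    rw [hfaith, Subgroup.mem_bot, hh, inv_mul_eq_one] at hh1
    conv_lhs => rw [hh1]
    group
  exact Coprime.pxq_lemma hE hQ hP hEP hQP hEQc hC

/-- The key lemma. -/
theorem invariant_le_pPrimeCore (hcon : Cfsg.IsPConstrained p G)
    (h2 : p = 2 → ∀ P : Subgroup G, IsPGroup p P → ∀ x ∈ P, ∀ y ∈ P, ∀ z ∈ P, Commute ⁅x, y⁆ z)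
    {E : Subgroup G} (hE : IsPGroup p E)
    (hfull : ∀ x ∈ Subgroup.centralizer (E : Set G), IsPGroup p (Subgroup.zpowers x) → x ∈ E)
    {Q : Subgroup G} (hQ : (Nat.card Q).Coprime p) (hEQ : E ≤ Subgroup.normalizer (Q : Set G)) :
    Q ≤ Cfsg.pPrimeCore p G := by
  set N := Cfsg.pPrimeCore p G
  set π := QuotientGroup.mk' N
  set P0 := Cfsg.pCore p (G ⧸ N)
  have hπ : Function.Surjective π := QuotientGroup.mk'_surjective N
  have hNp : (Nat.card N).Coprime p := Cores.pPrimeCore_coprime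
  have hP0 : IsPGroup p P0 := Cores.pCore_isPGroup
  have hnorm : ∀ H : Subgroup (G ⧸ N), H ≤ Subgroup.normalizer (P0 : Set (G ⧸ N)) := fun H =>
    le_top.trans (Subgroup.normalizer_eq_top_iff.2 inferInstance).ge
  -- the centraliser of `P0`
  have hCP : Subgroup.centralizer (P0 : Set (G ⧸ N)) ≤ P0 := by
    obtain ⟨P⟩ := (inferInstance : Nonempty (Sylow p ↥(Cfsg.pPrimePCore p G)))
    have hm := PSolv.map_sylow_pPrimePCore P
    set P' := (P : Subgroup ↥(Cfsg.pPrimePCore p G)).map (Cfsg.pPrimePCore p G).subtype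
    have hPp : IsPGroup p P' := P.isPGroup'.map _
    obtain ⟨i, hi⟩ := IsPGroup.iff_card.1 hPp
    haveI := hPp.isNilpotent
    change P'.map π = P0 at hm
    rw [← hm, Coprime.centralizer_map_mk' P' N (hi ▸ hNp.symm.pow_left i) (Or.inl inferInstance),
      hm]
    exact (Subgroup.map_mono (hcon P)).trans PSolv.map_pPrimePCore.le
  set Eb := E.map π
  set Qb := Q.map π
  have hEb : IsPGroup p Eb := hE.map π
  have hQb : (Nat.card Qb).Coprime p := hQ.coprime_dvd_left (Q.card_map_dvd π)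
  have hEQb : Eb ≤ Subgroup.normalizer (Qb : Set (G ⧸ N)) :=
    (Subgroup.map_mono hEQ).trans (Subgroup.le_normalizer_map π)
  have hfullb : P0 ⊓ Subgroup.centralizer (Eb : Set (G ⧸ N)) ≤ Eb := by
    rintro x ⟨hx0, hxc⟩
    haveI := hE.isNilpotent
    obtain ⟨i, hi⟩ := IsPGroup.iff_card.1 hE
    rw [SetLike.mem_coe, Coprime.centralizer_map_mk' E N (hi ▸ hNp.symm.pow_left i)
      (Or.inl inferInstance)] at hxc
    obtain ⟨c, hc, rfl⟩ := hxc
    obtain ⟨a, m, hm, ham⟩ := Nat.exists_eq_pow_mul_and_not_dvd (orderOf_pos c).ne' p hp.out.ne_one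
    have hcmE : c ^ m ∈ E := hfull _ (pow_mem hc m) (IsPGroup.of_card (n := a) (by
      rw [Nat.card_zpowers, orderOf_pow_of_dvd (fun h => by simp [h] at hm) (ham ▸ dvd_mul_left _ _),
        ham, Nat.mul_div_cancel _ (Nat.pos_of_ne_zero fun h => by simp [h] at hm)]))
    obtain ⟨j, hj⟩ := IsPGroup.iff_orderOf.1 hP0 ⟨π c, hx0⟩
    rw [Subgroup.orderOf_mk] at hj
    obtain ⟨s, hs⟩ := exists_pow_eq_self_of_coprime (x := π c) (n := m)
      (hj ▸ ((hp.out.coprime_iff_not_dvd.2 hm).symm).pow_right j)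
    rw [← hs, ← map_pow]
    exact pow_mem (show (π c) ^ m ∈ Eb from ⟨c ^ m, hcmE, map_pow π c m⟩) s
  have hC : Qb ≤ Subgroup.centralizer
      ((P0 ⊓ Subgroup.centralizer (Eb : Set (G ⧸ N)) : Subgroup (G ⧸ N)) : Set (G ⧸ N)) := by
    intro q hq
    refine Subgroup.mem_centralizer_iff.2 fun c hc => ?_
    have h1 : c * q * c⁻¹ * q⁻¹ ∈ Qb :=
      mul_mem ((Subgroup.mem_normalizer_iff.1 (hEQb (hfullb hc)) q).1 hq) (inv_mem hq)
    have h2 : c * q * c⁻¹ * q⁻¹ ∈ P0 := by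
      rw [mul_assoc, mul_assoc, ← mul_assoc q]
      exact mul_mem hc.1 ((Subgroup.mem_normalizer_iff.1 (hnorm Qb hq) _).1 (inv_mem hc.1))
    obtain ⟨j, hj⟩ := IsPGroup.iff_orderOf.1 hP0 ⟨_, h2⟩
    rw [Subgroup.orderOf_mk] at hj
    have h3 : c * q * c⁻¹ * q⁻¹ = 1 := orderOf_eq_one_iff.1 (Nat.eq_one_of_dvd_coprimes
      ((hQb.coprime_dvd_left (Subgroup.orderOf_dvd_natCard _ h1)).pow_right j) dvd_rfl hj.dvd)
    calc c * q = c * q * c⁻¹ * q⁻¹ * q * c := by group
      _ = q * c := by rw [h3, one_mul]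
  have hfaith : Qb ⊓ Subgroup.centralizer (P0 : Set (G ⧸ N)) = ⊥ := by
    rw [eq_bot_iff]
    intro q hq
    obtain ⟨j, hj⟩ := IsPGroup.iff_orderOf.1 hP0 ⟨q, hCP hq.2⟩
    rw [Subgroup.orderOf_mk] at hj
    exact Subgroup.mem_bot.2 (orderOf_eq_one_iff.1 (Nat.eq_one_of_dvd_coprimes
      ((hQb.coprime_dvd_left (Subgroup.orderOf_dvd_natCard _ hq.1)).pow_right j) dvd_rfl hj.dvd))
  have hcent : Qb ≤ Subgroup.centralizer (P0 : Set (G ⧸ N)) := by
    by_cases hp2 : p = 2
    · refine centralizes_class_two hP0 hQb hEb (hnorm _) (hnorm _) hEQb hC hfaith ?_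
      -- lift to a `p`-subgroup of `G`
      set Pb := P0 ⊔ Eb
      have hPb : IsPGroup p Pb := hP0.to_sup_of_normal_left hEb
      set T := Pb.comap π
      obtain ⟨S⟩ := (inferInstance : Nonempty (Sylow p T))
      let f : T →* Pb := π.subgroupComap Pb
      have hf : Function.Surjective f := π.subgroupComap_surjective_of_surjective Pb hπ
      have htop : (S : Subgroup T).map f = ⊤ := by
        have h1 := (S.mapSurjective hf).is_maximal' (hPb.to_subgroup ⊤) le_top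
        rw [← Sylow.coe_mapSurjective hf S]
        exact h1.symm
      have hlift : ∀ u ∈ Pb, ∃ v ∈ (S : Subgroup T).map T.subtype, π v = u := by
        intro u hu
        obtain ⟨v, hv, hvu⟩ := htop.ge (Subgroup.mem_top (⟨u, hu⟩ : Pb))
        exact ⟨v, ⟨v, hv, rfl⟩, congrArg Subtype.val hvu⟩
      intro x hx e he z hz
      obtain ⟨x', hx', rfl⟩ := hlift x ((le_sup_left : P0 ≤ Pb) hx)
      obtain ⟨e', he', rfl⟩ := hlift e ((le_sup_right : Eb ≤ Pb) he)
      obtain ⟨z', hz', rfl⟩ := hlift z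
        (hz.elim (fun h => (le_sup_left : P0 ≤ Pb) h) (fun h => (le_sup_right : Eb ≤ Pb) h))
      rw [← map_commutatorElement]
      exact (h2 hp2 _ (S.isPGroup'.map _) x' hx' e' he' z' hz').map π
    · exact centralizes_odd hp2 hP0 hQb hEb (hnorm _) (hnorm _) hEQb hC
  have hQbot : Qb = ⊥ := by rw [← hfaith]; exact (inf_eq_left.2 hcent).symm
  intro q hq
  exact (QuotientGroup.eq_one_iff q).1 (Subgroup.mem_bot.1 (hQbot ▸ ⟨q, hq, rfl⟩))

end Cfsg.Agent.OddPre.InvCore
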