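import Mathlib.Order.OrderIsoNat
import Cfsg.Prelude.Def_OddOrderLocal
import Cfsg.Agent.PGroup.Basic

/-!
The Puig series: order properties, self-centralising, relative version and transport.
-/

set_option linter.style.haveILetI false

namespace Cfsg.Agent.OddPre.Puig

variable {G : Type*} [Group G]

theorem puigStep_anti {X Y : Subgroup G} (h : X ≤ Y) : Cfsg.puigStep Y ≤ Cfsg.puigStep X :=
  sSup_le_sSup fun _ hA => ⟨hA.1, h.trans hA.2⟩

theorem puigSeq_one : Cfsg.puigSeq G 1 = ⊤ := by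
  refine top_le_iff.1 fun x _ => ?_
  exact (le_sSup (s := {A : Subgroup G | IsMulCommutative A ∧ Cfsg.puigSeq G 0 ≤ Subgroup.normalizer (A : Set G)})
    ⟨inferInstance, bot_le⟩) (Subgroup.mem_zpowers x)

theorem puigSeq_adj (n : ℕ) :
    Cfsg.puigSeq G (2 * n) ≤ Cfsg.puigSeq G (2 * n + 1) ∧
      Cfsg.puigSeq G (2 * n + 2) ≤ Cfsg.puigSeq G (2 * n + 1) := by
  induction n with
  | zero => exact ⟨bot_le, le_of_le_of_eq le_top puigSeq_one.symm⟩
  | succ n ih =>
    have h : Cfsg.puigSeq G (2 * (n + 1)) ≤ Cfsg.puigSeq G (2 * (n + 1) + 1) := puigStep_anti ih.2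
    exact ⟨h, puigStep_anti h⟩

theorem puigSeq_even_succ (n : ℕ) : Cfsg.puigSeq G (2 * n) ≤ Cfsg.puigSeq G (2 * (n + 1)) := by
  induction n with
  | zero => exact bot_le
  | succ n ih => exact puigStep_anti (puigStep_anti ih)

theorem puigSeq_odd_succ (n : ℕ) : Cfsg.puigSeq G (2 * (n + 1) + 1) ≤ Cfsg.puigSeq G (2 * n + 1) :=
  puigStep_anti (puigSeq_even_succ n)

theorem monotone_even : Monotone fun n : ℕ => Cfsg.puigSeq G (2 * n) :=
  monotone_nat_of_le_succ puigSeq_even_succ

theorem antitone_odd : Antitone fun n : ℕ => Cfsg.puigSeq G (2 * n + 1) :=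
  antitone_nat_of_succ_le puigSeq_odd_succ

theorem even_le_odd (n m : ℕ) : Cfsg.puigSeq G (2 * n) ≤ Cfsg.puigSeq G (2 * m + 1) :=
  ((monotone_even (le_max_left n m)).trans (puigSeq_adj (max n m)).1).trans
    (antitone_odd (le_max_right n m))

theorem exists_stable [Finite G] : ∃ k : ℕ, ∀ n : ℕ, k ≤ n →
    Cfsg.puigSeq G (2 * n) = Cfsg.puigLower G ∧
      Cfsg.puigSeq G (2 * n + 1) = Cfsg.puigSubgroup G := by
  obtain ⟨k, hk⟩ := wellFoundedGT_iff_monotone_chain_condition.1 inferInstance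
    (⟨fun n => Cfsg.puigSeq G (2 * n), monotone_even⟩ : ℕ →o Subgroup G)
  have hk' : ∀ n, k ≤ n → Cfsg.puigSeq G (2 * k) = Cfsg.puigSeq G (2 * n) := hk
  have hlow : Cfsg.puigSeq G (2 * k) = Cfsg.puigLower G := by
    refine le_antisymm (le_iSup (fun n => Cfsg.puigSeq G (2 * n)) k) (iSup_le fun n => ?_)
    rw [hk' _ (le_max_right n k)]
    exact monotone_even (le_max_left n k)
  have hodd : ∀ n, k ≤ n → Cfsg.puigSeq G (2 * n + 1) = Cfsg.puigSeq G (2 * k + 1) := fun n hn => by
    change Cfsg.puigStep (Cfsg.puigSeq G (2 * n)) = Cfsg.puigStep (Cfsg.puigSeq G (2 * k))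
    rw [hk' n hn]
  have htop : Cfsg.puigSeq G (2 * k + 1) = Cfsg.puigSubgroup G := by
    refine le_antisymm (le_iInf fun n => ?_) (iInf_le (fun n => Cfsg.puigSeq G (2 * n + 1)) k)
    rw [← hodd _ (le_max_right n k)]
    exact antitone_odd (le_max_left n k)
  exact ⟨k, fun n hn => ⟨(hk' n hn).symm.trans hlow, (hodd n hn).trans htop⟩⟩

theorem puigLower_le_puigSubgroup : Cfsg.puigLower G ≤ Cfsg.puigSubgroup G :=
  iSup_le fun n => le_iInf fun m => even_le_odd n m

theorem step_lower [Finite G] : Cfsg.puigStep (Cfsg.puigLower G) = Cfsg.puigSubgroup G := by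
  obtain ⟨k, hk⟩ := exists_stable (G := G)
  rw [← (hk k le_rfl).1, ← (hk k le_rfl).2]
  rfl

theorem step_puigSubgroup [Finite G] : Cfsg.puigStep (Cfsg.puigSubgroup G) = Cfsg.puigLower G := by
  obtain ⟨k, hk⟩ := exists_stable (G := G)
  rw [← (hk (k + 1) (Nat.le_succ k)).1, ← (hk k le_rfl).2]
  rfl

/-- An abelian normal subgroup lies in every positive term. -/
theorem le_puigSeq_of_normal {A : Subgroup G} (hA : IsMulCommutative A) [A.Normal] {n : ℕ}
    (hn : 0 < n) : A ≤ Cfsg.puigSeq G n := by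
  obtain ⟨m, rfl⟩ : ∃ m, n = m + 1 := ⟨n - 1, by omega⟩
  exact le_sSup ⟨hA, fun x _ => (Subgroup.normalizer_eq_top_iff.2 inferInstance).ge (Subgroup.mem_top x)⟩

theorem le_puigLower_of_normal {A : Subgroup G} (hA : IsMulCommutative A) [A.Normal] :
    A ≤ Cfsg.puigLower G :=
  (le_puigSeq_of_normal hA (n := 2 * 1) (by norm_num)).trans
    (le_iSup (fun n => Cfsg.puigSeq G (2 * n)) 1)

/-! ### The series inside a subgroup -/

/-- The Puig series of `S` as subgroups of the ambient group. -/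
def puigIn (S : Subgroup G) : ℕ → Subgroup G
  | 0 => ⊥
  | n + 1 => sSup {A | A ≤ S ∧ IsMulCommutative A ∧ puigIn S n ≤ Subgroup.normalizer (A : Set G)}

theorem le_puigIn_succ {S A : Subgroup G} {n : ℕ} (h1 : A ≤ S) (h2 : IsMulCommutative A)
    (h3 : puigIn S n ≤ Subgroup.normalizer (A : Set G)) : A ≤ puigIn S (n + 1) :=
  le_sSup ⟨h1, h2, h3⟩

theorem puigIn_le (S : Subgroup G) : ∀ n, puigIn S n ≤ S
  | 0 => bot_le
  | _ + 1 => sSup_le fun _ hA => hA.1

theorem map_puigSeq {H : Type*} [Group H] (f : H →* G) (hf : Function.Injective f) :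
    ∀ n, (Cfsg.puigSeq H n).map f = puigIn f.range n
  | 0 => Subgroup.map_bot f
  | n + 1 => by
    have ih := map_puigSeq f hf n
    refine le_antisymm ?_ (sSup_le ?_)
    · rw [Subgroup.map_le_iff_le_comap]
      refine sSup_le fun A hA => Subgroup.map_le_iff_le_comap.1 ?_
      haveI := hA.1
      refine le_puigIn_succ (Subgroup.map_le_range f A) inferInstance ?_
      rw [← ih]
      exact (Subgroup.map_mono hA.2).trans (Subgroup.le_normalizer_map f)
    · rintro B ⟨hB1, hB2, hB3⟩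
      rw [← Subgroup.map_comap_eq_self hB1]
      haveI := hB2
      refine Subgroup.map_mono (le_sSup (show B.comap f ∈
        {A : Subgroup H | IsMulCommutative A ∧ Cfsg.puigSeq H n ≤ Subgroup.normalizer (A : Set H)} from
        ⟨Subgroup.comap_injective_isMulCommutative (H := B) hf, fun x hx => ?_⟩))
      have h1 : f x ∈ Subgroup.normalizer (B : Set G) := hB3 (ih ▸ ⟨x, hx, rfl⟩)
      refine Subgroup.mem_normalizer_iff.2 fun y => ?_
      simp only [Subgroup.mem_comap, map_mul, map_inv]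
      exact Subgroup.mem_normalizer_iff.1 h1 (f y)

theorem map_subtype_puigSeq (S : Subgroup G) (n : ℕ) :
    (Cfsg.puigSeq S n).map S.subtype = puigIn S n := by
  rw [map_puigSeq S.subtype S.subtype_injective, Subgroup.range_subtype]

/-- The transport of the series along a homomorphism injective on `S`. -/
theorem map_puigIn {H : Type*} [Group H] (f : G →* H) (S : Subgroup G)
    (hf : Function.Injective (f.comp S.subtype)) (n : ℕ) :
    (puigIn S n).map f = puigIn (S.map f) n := by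
  rw [← map_subtype_puigSeq, Subgroup.map_map, map_puigSeq _ hf]
  congr 1
  rw [MonoidHom.range_comp, Subgroup.range_subtype]

/-- `L(S)` as a subgroup of the ambient group. -/
def puigL (S : Subgroup G) : Subgroup G := (Cfsg.puigSubgroup S).map S.subtype

/-- `L_*(S)` as a subgroup of the ambient group. -/
def puigLs (S : Subgroup G) : Subgroup G := (Cfsg.puigLower S).map S.subtype

theorem puigL_le (S : Subgroup G) : puigL S ≤ S := Subgroup.map_subtype_le _

theorem puigLs_le_puigL (S : Subgroup G) : puigLs S ≤ puigL S :=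
  Subgroup.map_mono puigLower_le_puigSubgroup

theorem exists_stableIn [Finite G] (S : Subgroup G) : ∃ k : ℕ, ∀ n : ℕ, k ≤ n →
    puigIn S (2 * n) = puigLs S ∧ puigIn S (2 * n + 1) = puigL S := by
  obtain ⟨k, hk⟩ := exists_stable (G := S)
  exact ⟨k, fun n hn => ⟨by rw [← map_subtype_puigSeq, (hk n hn).1]; rfl,
    by rw [← map_subtype_puigSeq, (hk n hn).2]; rfl⟩⟩

theorem puigIn_even_le_puigLs (S : Subgroup G) (n : ℕ) : puigIn S (2 * n) ≤ puigLs S := by
  rw [← map_subtype_puigSeq]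
  exact Subgroup.map_mono (le_iSup (fun m => Cfsg.puigSeq S (2 * m)) n)

theorem puigL_le_puigIn_odd (S : Subgroup G) (n : ℕ) : puigL S ≤ puigIn S (2 * n + 1) := by
  rw [← map_subtype_puigSeq]
  exact Subgroup.map_mono (iInf_le (fun m => Cfsg.puigSeq S (2 * m + 1)) n)

theorem puigIn_even_le_odd (S : Subgroup G) (n m : ℕ) : puigIn S (2 * n) ≤ puigIn S (2 * m + 1) := by
  rw [← map_subtype_puigSeq, ← map_subtype_puigSeq]
  exact Subgroup.map_mono (even_le_odd n m)

theorem map_puigL {H : Type*} [Group H] [Finite G] [Finite H] (f : G →* H) (S : Subgroup G)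
    (hf : Function.Injective (f.comp S.subtype)) : (puigL S).map f = puigL (S.map f) := by
  obtain ⟨k, hk⟩ := exists_stableIn S
  obtain ⟨l, hl⟩ := exists_stableIn (S.map f)
  rw [← (hk _ (le_max_left k l)).2, ← (hl _ (le_max_right k l)).2, map_puigIn f S hf]

/-- `L(S) ≤ T ≤ S` implies `L(T) = L(S)` and `L_*(T) = L_*(S)`. -/
theorem eq_of_puigL_le [Finite G] {S T : Subgroup G} (hTS : T ≤ S) (hL : puigL S ≤ T) :
    puigL T = puigL S ∧ puigLs T = puigLs S := by
  have hsub : ∀ n, puigIn S (2 * n) ≤ puigIn T (2 * n) ∧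
      puigIn T (2 * n + 1) ≤ puigIn S (2 * n + 1) := by
    intro n
    induction n with
    | zero =>
      refine ⟨bot_le, sSup_le fun A hA => le_puigIn_succ (hA.1.trans hTS) hA.2.1 bot_le⟩
    | succ n ih =>
      have h1 : puigIn S (2 * (n + 1)) ≤ puigIn T (2 * (n + 1)) := by
        refine sSup_le fun A hA => le_puigIn_succ ?_ hA.2.1 (ih.2.trans hA.2.2)
        exact ((le_puigIn_succ hA.1 hA.2.1 hA.2.2).trans
          ((puigIn_even_le_puigLs S (n + 1)).trans (puigLs_le_puigL S))).trans hL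
      exact ⟨h1, sSup_le fun A hA => le_puigIn_succ (hA.1.trans hTS) hA.2.1 (h1.trans hA.2.2)⟩
  obtain ⟨k, hk⟩ := exists_stableIn S
  have hsup : ∀ n, puigIn T (2 * n) ≤ puigLs S ∧ puigL S ≤ puigIn T (2 * n + 1) := by
    intro n
    induction n with
    | zero =>
      refine ⟨bot_le, hL.trans fun x hx => ?_⟩
      exact le_puigIn_succ ((Subgroup.zpowers_le).2 hx) inferInstance bot_le (Subgroup.mem_zpowers x)
    | succ n ih =>
      have h1 : puigIn T (2 * (n + 1)) ≤ puigLs S := by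
        rw [← (hk (k + 1) (Nat.le_succ k)).1]
        refine sSup_le fun A hA => le_puigIn_succ (hA.1.trans hTS) hA.2.1 ?_
        change puigIn S (2 * k + 1) ≤ _; rw [(hk k le_rfl).2]
        exact ih.2.trans hA.2.2
      refine ⟨h1, ?_⟩
      rw [← (hk k le_rfl).2]
      refine sSup_le fun A hA => le_puigIn_succ ?_ hA.2.1 (h1.trans ?_)
      · exact ((le_puigIn_succ hA.1 hA.2.1 hA.2.2).trans (hk k le_rfl).2.le).trans hL
      · rw [← (hk k le_rfl).1]; exact hA.2.2
  obtain ⟨l, hl⟩ := exists_stableIn T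
  have h1 := hsub (max k l)
  have h2 := hsup (max k l)
  rw [(hk _ (le_max_left k l)).1, (hk _ (le_max_left k l)).2, (hl _ (le_max_right k l)).1,
    (hl _ (le_max_right k l)).2] at h1
  rw [(hl _ (le_max_right k l)).1, (hl _ (le_max_right k l)).2] at h2
  exact ⟨le_antisymm h1.2 h2.2, le_antisymm h2.1 h1.1⟩

end Cfsg.Agent.OddPre.Puig
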