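import Cfsg.Agent.OddPre.Puig
import Cfsg.Agent.OddPre.PStable

/-!
Puig's theorem for solvable groups of odd order.
-/

set_option linter.style.haveILetI false

namespace Cfsg.Agent.OddPre.Puig

variable {G : Type*} [Group G] [Finite G]

theorem relIndex_sup_right_normal {H : Type*} [Group H] [Finite H] (S D : Subgroup H) [D.Normal] :
    S.relIndex (S ⊔ D) = S.relIndex D := by
  have e1 := Subgroup.card_mul_index (S.subgroupOf (S ⊔ D))
  have e2 := Subgroup.card_mul_index (D.subgroupOf (S ⊔ D))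
  have e3 := Subgroup.card_mul_index (D.subgroupOf S)
  have e4 := Subgroup.card_mul_index (S.subgroupOf D)
  rw [Nat.card_congr (Subgroup.subgroupOfEquivOfLe (le_sup_left : S ≤ S ⊔ D)).toEquiv] at e1
  rw [Nat.card_congr (Subgroup.subgroupOfEquivOfLe (le_sup_right : D ≤ S ⊔ D)).toEquiv] at e2
  have e5 : Nat.card (D.subgroupOf S) = Nat.card (S.subgroupOf D) := by
    rw [← Subgroup.card_map_of_injective S.subtype_injective, ← Subgroup.card_map_of_injective D.subtype_injective,
      Subgroup.subgroupOf_map_subtype, Subgroup.subgroupOf_map_subtype, inf_comm]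
  change Nat.card S * S.relIndex (S ⊔ D) = _ at e1
  change Nat.card D * D.relIndex (S ⊔ D) = _ at e2
  change Nat.card (D.subgroupOf S) * D.relIndex S = _ at e3
  change Nat.card (S.subgroupOf D) * S.relIndex D = _ at e4
  rw [Subgroup.relIndex_sup_right] at e2
  refine Nat.eq_of_mul_eq_mul_left (Nat.card_pos (α := S)) ?_
  rw [e1, ← e2, ← e4, ← e3, e5]
  ring

theorem centralizer_puigSeq_le {p : ℕ} [Fact p.Prime] (hG : IsPGroup p G) {n : ℕ} (hn : 0 < n) :
    Subgroup.centralizer ((Cfsg.puigSeq G n : Subgroup G) : Set G) ≤ Cfsg.puigSeq G n := by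
  obtain ⟨B, hBn, hBc, -, hB⟩ := Cfsg.Agent.PGroup.exists_self_centralizing_normal_abelian hG
    (A := ⊥) inferInstance
  haveI := hBn
  have hle := le_puigSeq_of_normal hBc hn
  exact ((Subgroup.centralizer_le (SetLike.coe_subset_coe.2 hle)).trans hB.le).trans hle

theorem centralizer_puigLower_le {p : ℕ} [Fact p.Prime] (hG : IsPGroup p G) :
    Subgroup.centralizer ((Cfsg.puigLower G : Subgroup G) : Set G) ≤ Cfsg.puigLower G := by
  obtain ⟨k, hk⟩ := exists_stable (G := G)
  rw [← (hk (k + 1) (Nat.le_succ k)).1]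
  exact centralizer_puigSeq_le hG (by omega)

theorem centralizer_puigSubgroup_le {p : ℕ} [Fact p.Prime] (hG : IsPGroup p G) :
    Subgroup.centralizer ((Cfsg.puigSubgroup G : Subgroup G) : Set G) ≤ Cfsg.puigSubgroup G := by
  obtain ⟨k, hk⟩ := exists_stable (G := G)
  rw [← (hk k le_rfl).2]
  exact centralizer_puigSeq_le hG (by omega)

theorem inf_centralizer_puigIn_le {p : ℕ} [Fact p.Prime] {S : Subgroup G} (hS : IsPGroup p S)
    {n : ℕ} (hn : 0 < n) : S ⊓ Subgroup.centralizer (puigIn S n : Set G) ≤ puigIn S n := by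
  rintro x ⟨hxS, hxc⟩
  rw [← map_subtype_puigSeq]
  refine ⟨⟨x, hxS⟩, centralizer_puigSeq_le hS hn (Subgroup.mem_centralizer_iff.2 fun y hy => ?_), rfl⟩
  exact Subtype.ext (Subgroup.mem_centralizer_iff.1 hxc y
    (map_subtype_puigSeq S n ▸ ⟨y, hy, rfl⟩))

/-- The centre of a subgroup, inside the ambient group. -/
theorem map_center_eq {H : Type*} [Group H] (K : Subgroup H) :
    (Subgroup.center K).map K.subtype = K ⊓ Subgroup.centralizer (K : Set H) := by
  ext x
  constructor
  · rintro ⟨y, hy, rfl⟩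
    exact ⟨y.2, Subgroup.mem_centralizer_iff.2 fun z hz =>
      congrArg Subtype.val (Subgroup.mem_center_iff.1 hy ⟨z, hz⟩)⟩
  · rintro ⟨h1, h2⟩
    exact ⟨⟨x, h1⟩, Subgroup.mem_center_iff.2 fun z =>
      Subtype.ext (Subgroup.mem_centralizer_iff.1 h2 z z.2), rfl⟩

/-- `Z(L(S))` inside the ambient group. -/
def puigZ (S : Subgroup G) : Subgroup G := puigL S ⊓ Subgroup.centralizer (puigL S : Set G)

theorem map_center_puig (S : Subgroup G) :
    ((Subgroup.center ↥(Cfsg.puigSubgroup ↥S)).map (Cfsg.puigSubgroup ↥S).subtype).map S.subtype =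
      puigZ S := by
  rw [map_center_eq, Subgroup.map_inf _ _ _ S.subtype_injective]
  refine le_antisymm (inf_le_inf le_rfl ?_) (fun x hx => ?_)
  · rintro _ ⟨y, hy, rfl⟩
    refine Subgroup.mem_centralizer_iff.2 ?_
    rintro _ ⟨z, hz, rfl⟩
    exact congrArg Subtype.val (Subgroup.mem_centralizer_iff.1 hy z hz)
  · obtain ⟨y, hy, rfl⟩ := hx.1
    exact ⟨⟨y, hy, rfl⟩, ⟨y, Subgroup.mem_centralizer_iff.2 fun z hz =>
      Subtype.ext (Subgroup.mem_centralizer_iff.1 hx.2 _ ⟨z, hz, rfl⟩), rfl⟩⟩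

theorem map_puigIn_conj (g : G) (S : Subgroup G) (n : ℕ) :
    (puigIn S n).map (MulAut.conj g).toMonoidHom = puigIn (S.map (MulAut.conj g).toMonoidHom) n :=
  map_puigIn _ S ((MulAut.conj g).injective.comp S.subtype_injective) n

theorem normalizer_le_of_map_eq {S T : Subgroup G}
    (h : ∀ g : G, S.map (MulAut.conj g).toMonoidHom = S → T.map (MulAut.conj g).toMonoidHom = T) :
    Subgroup.normalizer (S : Set G) ≤ Subgroup.normalizer (T : Set G) := by
  have key : ∀ g : G, ∀ R : Subgroup G,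
      g ∈ Subgroup.normalizer (R : Set G) ↔ R.map (MulAut.conj g).toMonoidHom = R := by
    intro g R
    constructor
    · intro hg
      ext x
      constructor
      · rintro ⟨y, hy, rfl⟩
        exact (Subgroup.mem_normalizer_iff.1 hg y).1 hy
      · intro hx
        have e : g * (g⁻¹ * x * g) * g⁻¹ = x := by group
        exact ⟨g⁻¹ * x * g, (Subgroup.mem_normalizer_iff.1 hg _).2 (by rw [e]; exact hx), e⟩
    · intro he
      refine Subgroup.mem_normalizer_iff.2 fun x => ⟨fun hx => he.le ⟨x, hx, rfl⟩, fun hx => ?_⟩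
      obtain ⟨y, hy, hyx⟩ := he.ge hx
      exact ((MulAut.conj g).injective hyx) ▸ hy
  exact fun g hg => (key g T).2 (h g ((key g S).1 hg))

theorem normalizer_le_puigIn (S : Subgroup G) (n : ℕ) :
    Subgroup.normalizer (S : Set G) ≤ Subgroup.normalizer (puigIn S n : Set G) :=
  normalizer_le_of_map_eq fun g hg => by rw [map_puigIn_conj, hg]

theorem normalizer_le_puigL (S : Subgroup G) :
    Subgroup.normalizer (S : Set G) ≤ Subgroup.normalizer (puigL S : Set G) :=
  normalizer_le_of_map_eq fun g hg => by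
    rw [map_puigL _ S ((MulAut.conj g).injective.comp S.subtype_injective), hg]

theorem normalizer_le_puigLs (S : Subgroup G) :
    Subgroup.normalizer (S : Set G) ≤ Subgroup.normalizer (puigLs S : Set G) := by
  obtain ⟨k, hk⟩ := exists_stableIn S
  rw [← (hk k le_rfl).1]
  exact normalizer_le_puigIn S _

theorem map_inf_centralizer {H : Type*} [Group H] (f : G →* H) (S L : Subgroup G) (hLS : L ≤ S)
    (hf : Function.Injective (f.comp S.subtype)) :
    (L ⊓ Subgroup.centralizer (L : Set G)).map f = L.map f ⊓ Subgroup.centralizer (L.map f : Set H) := by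
  apply le_antisymm
  · refine le_inf (Subgroup.map_mono inf_le_left) ?_
    rintro _ ⟨x, hx, rfl⟩
    refine Subgroup.mem_centralizer_iff.2 ?_
    rintro _ ⟨y, hy, rfl⟩
    rw [← map_mul, Subgroup.mem_centralizer_iff.1 hx.2 y hy, map_mul]
  · rintro _ ⟨⟨x, hx, rfl⟩, hxc⟩
    refine ⟨x, ⟨hx, Subgroup.mem_centralizer_iff.2 fun y hy => ?_⟩, rfl⟩
    have h := Subgroup.mem_centralizer_iff.1 hxc _ ⟨y, hy, rfl⟩
    exact congrArg Subtype.val (hf (a₁ := ⟨y, hLS hy⟩ * ⟨x, hLS hx⟩) (a₂ := ⟨x, hLS hx⟩ * ⟨y, hLS hy⟩)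
      (by simpa using h))

theorem normalizer_le_puigZ (S : Subgroup G) :
    Subgroup.normalizer (S : Set G) ≤ Subgroup.normalizer (puigZ S : Set G) :=
  normalizer_le_of_map_eq fun g hg => by
    have hinj := (MulAut.conj g).injective.comp S.subtype_injective
    rw [puigZ, map_inf_centralizer _ S _ (puigL_le S) hinj, map_puigL _ S hinj, hg]

variable [Group.IsSolvable G] {p : ℕ} [hp : Fact p.Prime]

theorem puigIn_pCore (hp2 : p ≠ 2) (hodd : Odd (Nat.card G)) (hO : Cfsg.pPrimeCore p G = ⊥)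
    (S : Sylow p G) (n : ℕ) :
    puigIn (S : Subgroup G) (2 * n) ≤ puigIn (Cfsg.pCore p G) (2 * n) ∧
      puigIn (Cfsg.pCore p G) (2 * n + 1) ≤ puigIn (S : Subgroup G) (2 * n + 1) := by
  set T := Cfsg.pCore p G
  have hTS : T ≤ S := Cores.pCore_le_sylow S
  induction n with
  | zero => exact ⟨bot_le, sSup_le fun A hA => le_puigIn_succ (hA.1.trans hTS) hA.2.1 bot_le⟩
  | succ n ih =>
    have hPn : (puigIn T (2 * n + 1)).Normal := Subgroup.normalizer_eq_top_iff.1
      (top_le_iff.1 ((Subgroup.normalizer_eq_top_iff.2 (inferInstance : T.Normal)).ge.trans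
        (normalizer_le_puigIn T _)))
    have h1 : puigIn (S : Subgroup G) (2 * (n + 1)) ≤ puigIn T (2 * (n + 1)) := by
      refine sSup_le fun A hA => le_puigIn_succ ?_ hA.2.1 (ih.2.trans hA.2.2)
      haveI := hPn
      have hP : IsPGroup p (puigIn T (2 * n + 1)) := Cores.pCore_isPGroup.to_le (puigIn_le _ _)
      exact PStable.le_pCore hp2 hodd _ hP hO
        (inf_centralizer_puigIn_le Cores.pCore_isPGroup (by omega)) A
        (PStable.map_le_pCore hp2 hodd _ hP A hA.2.1 (ih.2.trans hA.2.2))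
    exact ⟨h1, sSup_le fun A hA => le_puigIn_succ (hA.1.trans hTS) hA.2.1 (h1.trans hA.2.2)⟩

theorem sandwich (hp2 : p ≠ 2) (hodd : Odd (Nat.card G)) (hO : Cfsg.pPrimeCore p G = ⊥)
    (S : Sylow p G) :
    puigLs (S : Subgroup G) ≤ puigLs (Cfsg.pCore p G) ∧
      puigL (Cfsg.pCore p G) ≤ puigL (S : Subgroup G) := by
  obtain ⟨k, hk⟩ := exists_stableIn (S : Subgroup G)
  obtain ⟨l, hl⟩ := exists_stableIn (Cfsg.pCore p G)
  have h := puigIn_pCore hp2 hodd hO S (max k l)
  rwa [(hk _ (le_max_left k l)).1, (hk _ (le_max_left k l)).2, (hl _ (le_max_right k l)).1,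
    (hl _ (le_max_right k l)).2] at h

theorem puigZ_normal (hp2 : p ≠ 2) (hodd : Odd (Nat.card G)) (hO : Cfsg.pPrimeCore p G = ⊥)
    (S : Sylow p G) : (puigZ (S : Subgroup G)).Normal := by
  set T := Cfsg.pCore p G
  obtain ⟨hLs, hL⟩ := sandwich hp2 hodd hO S
  set Y := puigZ T
  haveI hYn : Y.Normal := Subgroup.normalizer_eq_top_iff.1
    (top_le_iff.1 ((Subgroup.normalizer_eq_top_iff.2 (inferInstance : T.Normal)).ge.trans
      (normalizer_le_puigZ T)))
  have hYS : Y ≤ (S : Subgroup G) := (inf_le_left.trans (puigL_le T)).trans (Cores.pCore_le_sylow S)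
  have hYc : IsMulCommutative Y :=
    ⟨⟨fun a b => Subtype.ext (Subgroup.mem_centralizer_iff.1 b.2.2 a a.2.1)⟩⟩
  obtain ⟨k, hk⟩ := exists_stableIn (S : Subgroup G)
  have hYLs : Y ≤ puigLs (S : Subgroup G) := by
    rw [← (hk (k + 1) (Nat.le_succ k)).1]
    exact le_puigIn_succ hYS hYc fun x _ =>
      (Subgroup.normalizer_eq_top_iff.2 hYn).ge (Subgroup.mem_top x)
  set Z := puigZ (S : Subgroup G)
  have hZY : Z ≤ Y := by
    rintro z ⟨hz1, hz2⟩
    refine ⟨puigLs_le_puigL T (hLs ?_), Subgroup.centralizer_le (SetLike.coe_subset_coe.2 hL) hz2⟩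
    rw [← (hk (k + 1) (Nat.le_succ k)).1]
    refine inf_centralizer_puigIn_le S.isPGroup' (by omega) ⟨puigL_le _ hz1, ?_⟩
    rw [(hk (k + 1) (Nat.le_succ k)).1]
    exact Subgroup.centralizer_le (SetLike.coe_subset_coe.2 (puigLs_le_puigL _)) hz2
  set C := Subgroup.centralizer (Y : Set G)
  have hYp : IsPGroup p Y := Cores.pCore_isPGroup.to_le (inf_le_left.trans (puigL_le T))
  set D := (Cfsg.pCore p (G ⧸ C)).comap (QuotientGroup.mk' C)
  have hLD : puigL (S : Subgroup G) ≤ D := by
    rw [← (hk k le_rfl).2]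
    refine sSup_le fun A hA => Subgroup.map_le_iff_le_comap.1
      (PStable.map_le_pCore hp2 hodd Y hYp A hA.2.1 (hYLs.trans ?_))
    rw [← (hk k le_rfl).1]; exact hA.2.2
  -- the Sylow subgroup of `D`
  set P := (S : Subgroup G) ⊓ D with hP
  have hPp : IsPGroup p P := S.isPGroup'.to_le inf_le_left
  have hsylP : ∀ Q : Subgroup G, IsPGroup p Q → P ≤ Q → Q ≤ D → Q = P := by
    intro Q hQ hPQ hQD
    refine (Subgroup.eq_of_le_of_card_ge hPQ ?_).symm
    obtain ⟨i, hi⟩ := IsPGroup.iff_card.1 hQ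
    obtain ⟨j, hj⟩ := IsPGroup.iff_card.1 hPp
    rw [hi, hj]
    refine Nat.pow_le_pow_right hp.out.pos ?_
    by_contra hji
    have hdvd : p ∣ P.relIndex Q := by
      have h1 := Subgroup.card_mul_index (P.subgroupOf Q)
      rw [Nat.card_congr (Subgroup.subgroupOfEquivOfLe hPQ).toEquiv, hi, hj] at h1
      obtain ⟨d, hd⟩ := Nat.exists_eq_add_of_lt (not_le.1 hji)
      have h2 : P.relIndex Q = p ^ (d + 1) := by
        have : p ^ j * P.relIndex Q = p ^ j * p ^ (d + 1) := by
          rw [← pow_add, show j + (d + 1) = i by omega]; exact h1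
        exact Nat.eq_of_mul_eq_mul_left (pow_pos hp.out.pos j) this
      rw [h2]; exact dvd_pow_self p (Nat.succ_ne_zero d)
    -- `P` has index prime to `p` in `D`
    haveI : D.Normal := (inferInstance : (Cfsg.pCore p (G ⧸ C)).Normal).comap _
    have h4 : P.relIndex D ∣ (S : Subgroup G).index := by
      rw [hP, Subgroup.inf_relIndex_right]
      rw [← relIndex_sup_right_normal]
      exact Subgroup.relIndex_mul_index (le_sup_left : (S : Subgroup G) ≤ (S : Subgroup G) ⊔ D) ▸ dvd_mul_right _ _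
    exact S.not_dvd_index ((hdvd.trans (Subgroup.relIndex_mul_relIndex _ _ _ hPQ hQD ▸ dvd_mul_right _ _)).trans h4)
  obtain ⟨PD⟩ := (inferInstance : Nonempty (Sylow p D))
  let PS : Sylow p D :=
    { toSubgroup := P.subgroupOf D
      isPGroup' := hPp.comap_subtype
      is_maximal' := fun {Q} hQ hle => by
        have h := hsylP (Q.map D.subtype) (hQ.map _) (fun x hx => ⟨⟨x, hx.2⟩, hle hx, rfl⟩)
          (Subgroup.map_subtype_le _)
        rw [← h, Subgroup.subgroupOf, Subgroup.comap_map_eq_self_of_injective D.subtype_injective] }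
  haveI hDn : D.Normal := (inferInstance : (Cfsg.pCore p (G ⧸ C)).Normal).comap _
  have htop := Sylow.normalizer_sup_eq_top PS
  rw [show ((PS : Subgroup D).map D.subtype) = P by
    change (P.subgroupOf D).map D.subtype = P
    rw [Subgroup.subgroupOf_map_subtype]; exact inf_eq_left.2 inf_le_right] at htop
  -- `C` and `N(P)` normalise `Z`
  have hC : C ≤ Subgroup.normalizer (Z : Set G) :=
    (Subgroup.centralizer_le (SetLike.coe_subset_coe.2 hZY)).trans (Subgroup.centralizer_le_normalizer _)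
  have hP : Subgroup.normalizer (P : Set G) ≤ Subgroup.normalizer (Z : Set G) := by
    have h := (eq_of_puigL_le (inf_le_left : P ≤ (S : Subgroup G))
      (le_inf (puigL_le _) hLD)).1
    have h2 : puigZ P = Z := by
      change puigL P ⊓ Subgroup.centralizer (puigL P : Set G) = Z
      rw [h]; rfl
    exact h2 ▸ normalizer_le_puigZ P
  have hD : D ≤ C ⊔ P := by
    intro d hd
    have hDC : IsPGroup p (D.map (QuotientGroup.mk' C)) := by
      rw [Subgroup.map_comap_eq_self_of_surjective (QuotientGroup.mk'_surjective C)]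
      exact Cores.pCore_isPGroup
    let f : D →* D.map (QuotientGroup.mk' C) := (QuotientGroup.mk' C).subgroupMap D
    have hf : Function.Surjective f := (QuotientGroup.mk' C).subgroupMap_surjective D
    have htop2 : (PS : Subgroup D).map f = ⊤ := by
      have h1 := (PS.mapSurjective hf).is_maximal' (hDC.to_subgroup ⊤) le_top
      rw [← Sylow.coe_mapSurjective hf PS]
      exact h1.symm
    obtain ⟨u, hu, hue⟩ := htop2.ge (Subgroup.mem_top (f ⟨d, hd⟩))
    have hue' : QuotientGroup.mk' C (u : G) = QuotientGroup.mk' C d := congrArg Subtype.val hue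
    have h3 : (u : G)⁻¹ * d ∈ C := QuotientGroup.eq.1 hue'
    rw [show d = (u : G) * ((u : G)⁻¹ * d) by group]
    exact mul_mem ((le_sup_right : P ≤ C ⊔ P) hu) ((le_sup_left : C ≤ C ⊔ P) h3)
  apply Subgroup.normalizer_eq_top_iff.1
  rw [eq_top_iff, ← htop]
  exact sup_le hP (hD.trans (sup_le hC (Subgroup.le_normalizer.trans hP)))

theorem puig_factorisation (hp2 : p ≠ 2) (hodd : Odd (Nat.card G)) (S : Sylow p G) :
    Cfsg.pPrimeCore p G ⊔ Subgroup.normalizer (puigZ (S : Subgroup G) : Set G) = ⊤ := by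
  set N := Cfsg.pPrimeCore p G
  set π := QuotientGroup.mk' N
  have hπ : Function.Surjective π := QuotientGroup.mk'_surjective N
  have hinj : Function.Injective (π.comp (S : Subgroup G).subtype) := by
    rw [injective_iff_map_eq_one]
    intro s hs
    have h1 : (s : G) ∈ N := (QuotientGroup.eq_one_iff _).1 hs
    obtain ⟨m, hm⟩ := IsPGroup.iff_orderOf.1 S.isPGroup' s
    rw [← Subgroup.orderOf_coe] at hm
    exact Subtype.ext (orderOf_eq_one_iff.1 (Nat.eq_one_of_dvd_coprimes
      (Nat.Coprime.pow_right m Cores.pPrimeCore_coprime) (Subgroup.orderOf_dvd_natCard _ h1) hm.dvd))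
  set Z := puigZ (S : Subgroup G)
  have hmap : Z.map π = puigZ (S.mapSurjective hπ : Subgroup (G ⧸ N)) := by
    change (puigL (S : Subgroup G) ⊓ Subgroup.centralizer (puigL (S : Subgroup G) : Set G)).map π = _
    rw [map_inf_centralizer π _ _ (puigL_le _) hinj, map_puigL π _ hinj, ← Sylow.coe_mapSurjective hπ]
    rfl
  have hn := puigZ_normal hp2 (hodd.of_dvd_nat (Subgroup.card_quotient_dvd_card N))
    Cores.pPrimeCore_quotient_pPrimeCore_eq_bot (S.mapSurjective hπ)
  haveI hNZ : (N ⊔ Z).Normal := by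
    have h1 : N ⊔ Z = (Z.map π).comap π := by
      rw [Subgroup.comap_map_eq, QuotientGroup.ker_mk', sup_comm]
    rw [h1, hmap]
    exact hn.comap π
  have hZle : Z ≤ N ⊔ Z := le_sup_right
  have hcopN : ¬ p ∣ (Z.subgroupOf (N ⊔ Z)).index := by
    rw [← Subgroup.relIndex, ← Cores.coprime_iff_not_dvd_prime hp.out]
    exact Cores.pPrimeCore_coprime.coprime_dvd_left
      (by rw [sup_comm, relIndex_sup_right_normal]; exact Subgroup.relIndex_dvd_card Z N)
  let Q : Sylow p ↥(N ⊔ Z) :=
    ((S.isPGroup'.to_le (inf_le_left.trans (puigL_le _))).comap_subtype).toSylow hcopN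
  have htop := Sylow.normalizer_sup_eq_top Q
  have hQ : (Q : Subgroup ↥(N ⊔ Z)).map (N ⊔ Z).subtype = Z := by
    change (Z.subgroupOf (N ⊔ Z)).map (N ⊔ Z).subtype = Z; rw [Subgroup.subgroupOf_map_subtype]
    exact inf_eq_left.2 hZle
  rw [hQ] at htop
  rw [eq_top_iff, ← htop]
  exact sup_le le_sup_right (sup_le le_sup_left (Subgroup.le_normalizer.trans le_sup_right))

end Cfsg.Agent.OddPre.Puig
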