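import Cfsg.Agent.S1160
import Cfsg.Agent.Recog.TransLinear
import Cfsg.Agent.Cores.Fitting
import Cfsg.Agent.OddPre.Rank2Tower
import Mathlib.GroupTheory.SpecificGroups.ZGroup

/-!
Solvable groups of odd order acting transitively on the nonzero elements of an elementary abelian
group: the Fitting subgroup and its quotient.
-/

set_option autoImplicit false

namespace Cfsg.Agent.OddPre.TransOdd

open Subgroup

variable {D E : Type*} [Group D] [Finite D] [AddCommGroup E] [Finite E] [Nontrivial E]
  [DistribMulAction D E] [FaithfulSMul D E]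

/-- Transitivity on the nonzero elements. -/
def Trans (D E : Type*) [Group D] [AddCommGroup E] [DistribMulAction D E] : Prop :=
  ∀ a b : E, a ≠ 0 → b ≠ 0 → ∃ d : D, d • a = b

variable {q : ℕ} (hodd : Odd (Nat.card D)) (hq : q.Prime) (hE : ∀ e : E, q • e = 0)
  (htrans : Trans D E)

include hodd hq hE htrans in
/-- The `r`-cores are cyclic and fix only zero. -/
theorem pCore_fpf (r : ℕ) [Fact r.Prime] :
    IsCyclic (Cfsg.pCore r D) ∧
      ∀ g ∈ Cfsg.pCore r D, g ≠ 1 → ∀ e : E, g • e = e → e = 0 := by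
  set P := Cfsg.pCore r D with hPdef
  rcases eq_or_ne P ⊥ with hbot | hbot
  · refine ⟨?_, fun g hg hg1 => absurd ?_ hg1⟩
    · rw [hbot]; infer_instance
    · rw [hbot, Subgroup.mem_bot] at hg; exact hg
  have hP : IsPGroup r P := Cores.pCore_isPGroup
  have hr2 : r ≠ 2 := by
    intro h
    rcases hP.card_eq_or_dvd with h1 | h1
    · exact hbot (card_eq_one.1 h1)
    · subst h
      exact Nat.not_even_iff_odd.2 hodd (even_iff_two_dvd.2 (h1.trans (card_subgroup_dvd_card P)))
  have : FaithfulSMul P E := ⟨fun {g h} hgh => Subtype.ext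
    (FaithfulSMul.eq_of_smul_eq_smul (α := E) fun e => hgh e)⟩
  obtain ⟨hc, hf⟩ := S1160.result (P := P) (E := E) hr2 hP hq hE (fun a b ha hb => by
    obtain ⟨d, rfl⟩ := htrans a b ha hb
    refine Nat.card_congr
      { toFun := fun g => ⟨⟨d * (g : P) * d⁻¹,
          (inferInstance : P.Normal).conj_mem _ (g : P).2 d⟩, ?_⟩
        invFun := fun g => ⟨⟨d⁻¹ * (g : P) * d,
          by simpa using (inferInstance : P.Normal).conj_mem _ (g : P).2 d⁻¹⟩, ?_⟩
        left_inv := fun g => Subtype.ext (Subtype.ext (by simp [mul_assoc]))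
        right_inv := fun g => Subtype.ext (Subtype.ext (by simp [mul_assoc])) }
    · show (d * (g : P) * d⁻¹ : D) • d • a = d • a
      rw [mul_smul, mul_smul, inv_smul_smul]
      exact congrArg (d • ·) g.2
    · show (d⁻¹ * (g : P) * d : D) • a = a
      have h := g.2
      rw [MulAction.mem_stabilizer_iff] at h
      rw [mul_smul, mul_smul]
      exact (congrArg (d⁻¹ • ·) h).trans (inv_smul_smul d a))
  exact ⟨hc, fun g hg hg1 e he => hf ⟨g, hg⟩ (fun h => hg1 (congrArg Subtype.val h)) e he⟩

variable [Group.IsSolvable D]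

include hodd hq hE htrans in
/-- `F(D)` is cyclic and fixed-point-free, and `D/F(D)` is abelian. -/
theorem fitting_structure : IsCyclic ↥(Cfsg.fittingSubgroup D) ∧
      (∀ g ∈ Cfsg.fittingSubgroup D, g ≠ 1 → ∀ a : E, g • a = a → a = 0) ∧
      commutator D ≤ Cfsg.fittingSubgroup D := by
  set F := Cfsg.fittingSubgroup D with hF
  have hFnil : Group.IsNilpotent F := Cores.fittingSubgroup_isNilpotent
  have hZ : IsZGroup F := ⟨fun r hr S => by
    have : Fact r.Prime := ⟨hr⟩
    have hle : (S : Subgroup F).map F.subtype ≤ Cfsg.pCore r D := by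
      rintro _ ⟨x, hx, rfl⟩
      refine Rank2.mem_pCore_of_mem_fitting x.2 ?_
      obtain ⟨k, hk⟩ := IsPGroup.iff_orderOf.1 S.2 ⟨x, hx⟩
      exact ⟨k, by rw [Subgroup.orderOf_mk] at hk; rw [← hk]; exact Subgroup.orderOf_coe x⟩
    have := (pCore_fpf hodd hq hE htrans r).1
    have hc : IsCyclic ((S : Subgroup F).map F.subtype) :=
      isCyclic_of_injective (Subgroup.inclusion hle) (Subgroup.inclusion_injective hle)
    exact isCyclic_of_surjective _
      (equivMapOfInjective (S : Subgroup F) F.subtype F.subtype_injective).symm.surjective⟩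
  have hFc : IsCyclic F := inferInstance
  refine ⟨hFc, fun g hg hg1 a ha => ?_, ?_⟩
  · obtain ⟨r, hr, hd⟩ := Nat.exists_prime_and_dvd (fun e => hg1 (orderOf_eq_one_iff.mp e))
    have : Fact r.Prime := ⟨hr⟩
    have ho : orderOf (g ^ (orderOf g / r)) = r := orderOf_pow_orderOf_div (orderOf_pos g).ne' hd
    refine (pCore_fpf hodd hq hE htrans r).2 (g ^ (orderOf g / r))
      (Rank2.mem_pCore_of_mem_fitting (pow_mem hg _) ⟨1, by rw [ho, pow_one]⟩)
      (fun e => hr.ne_one (by rw [← ho, e, orderOf_one])) a ?_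
    exact (MulAction.stabilizer D a).pow_mem ha _
  · let c : D →* MulAut F := MulAut.conjNormal
    have hker : c.ker ≤ F := by
      refine le_trans ?_ Cores.centralizer_fittingSubgroup_le
      intro g hg
      rw [mem_centralizer_iff]
      intro x hx
      have h : ((c g ⟨x, hx⟩ : F) : D) = x := by rw [MonoidHom.mem_ker.1 hg]; rfl
      rw [MulAut.conjNormal_apply] at h
      exact (mul_inv_eq_iff_eq_mul.1 h).symm
    rw [commutator_def, commutator_le]
    intro g _ h _
    refine hker (MonoidHom.mem_ker.2 ?_)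
    have hcomm : c g * c h = c h * c g := by
      obtain ⟨x, hx⟩ := hFc.exists_generator
      refine MulEquiv.ext fun y => ?_
      obtain ⟨k, rfl⟩ := mem_zpowers_iff.1 (hx y)
      obtain ⟨m, hm⟩ := mem_zpowers_iff.1 (hx (c g x))
      obtain ⟨n, hn⟩ := mem_zpowers_iff.1 (hx (c h x))
      simp only [MulAut.mul_apply, map_zpow, ← hm, ← hn, ← zpow_mul]
      rw [mul_comm m n]
    rw [commutatorElement_def, map_mul, map_mul, map_mul, map_inv, map_inv, hcomm]
    group

section Semilinear

open Recog.TransLin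

/-- If an abelian normal subgroup of a transitive linear group contains its centraliser, the
quotient by it is cyclic. -/
theorem quotient_cyclic_of_selfcentralizing {q : ℕ} [Fact q.Prime] {V : Type*} [AddCommGroup V]
    [Module (ZMod q) V] [Finite V] [Nontrivial V] {D : Type*} [Group D] [Finite D]
    {ρ : D →* (V ≃ₗ[ZMod q] V)} (hρ : Function.Injective ρ) (htr : IsTrans ρ) {F : Subgroup D}
    (hFn : F.Normal) (hab : ∀ a ∈ F, ∀ b ∈ F, a * b = b * a)
    (hFC : centralizer (F : Set D) ≤ F) : IsCyclic (D ⧸ F) := by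
  letI : Field (spanOp ρ F) := (span_isField htr hFn hab).toField
  let L := spanOp ρ F
  let χf : D → (L ≃ₐ[ZMod q] L) := fun g =>
    { toFun := fun k => ⟨op ρ g * k * op ρ g⁻¹,
        conj_mem_span ρ (fun a ha => hFn.conj_mem a ha g) k.2⟩
      invFun := fun k => ⟨op ρ g⁻¹ * k * op ρ g, by
        have h := conj_mem_span ρ (g := g⁻¹) (fun a ha => hFn.conj_mem a ha g⁻¹) k.2
        rwa [inv_inv] at h⟩
      left_inv := fun k => Subtype.ext (by
        show op ρ g⁻¹ * (op ρ g * (k : Module.End (ZMod q) V) * op ρ g⁻¹) * op ρ g = k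
        simp only [mul_assoc]
        rw [op_inv_mul, mul_one, ← mul_assoc, op_inv_mul, one_mul])
      right_inv := fun k => Subtype.ext (by
        show op ρ g * (op ρ g⁻¹ * (k : Module.End (ZMod q) V) * op ρ g) * op ρ g⁻¹ = k
        simp only [mul_assoc]
        rw [op_mul_inv, mul_one, ← mul_assoc, op_mul_inv, one_mul])
      map_mul' := fun k l => Subtype.ext (by
        show op ρ g * ((k : Module.End (ZMod q) V) * l) * op ρ g⁻¹ =
          (op ρ g * k * op ρ g⁻¹) * (op ρ g * l * op ρ g⁻¹)
        simp only [mul_assoc]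
        rw [← mul_assoc (op ρ g⁻¹) (op ρ g), op_inv_mul, one_mul])
      map_add' := fun k l => Subtype.ext (by
        show op ρ g * ((k : Module.End (ZMod q) V) + l) * op ρ g⁻¹ = _
        rw [mul_add, add_mul]; rfl)
      commutes' := fun r => Subtype.ext (by
        show op ρ g * algebraMap (ZMod q) _ r * op ρ g⁻¹ = algebraMap (ZMod q) _ r
        rw [← Algebra.commutes, mul_assoc, op_mul_inv, mul_one]) }
  let χ : D →* (L ≃ₐ[ZMod q] L) :=
    { toFun := χf
      map_one' := AlgEquiv.ext fun k => Subtype.ext (by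
        show op ρ 1 * (k : Module.End (ZMod q) V) * op ρ 1⁻¹ = k
        rw [inv_one, map_one, one_mul, mul_one])
      map_mul' := fun g h => AlgEquiv.ext fun k => Subtype.ext (by
        show op ρ (g * h) * (k : Module.End (ZMod q) V) * op ρ (g * h)⁻¹ =
          op ρ g * (op ρ h * k * op ρ h⁻¹) * op ρ g⁻¹
        rw [mul_inv_rev, map_mul, map_mul]; simp only [mul_assoc]) }
  have hker : χ.ker ≤ F := by
    refine le_trans ?_ hFC
    intro g hg
    rw [mem_centralizer_iff]
    intro a ha
    have h : op ρ g * op ρ a * op ρ g⁻¹ = op ρ a :=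
      congrArg Subtype.val (AlgEquiv.congr_fun (MonoidHom.mem_ker.1 hg) ⟨op ρ a, op_mem_span ρ ha⟩)
    rw [← map_mul, ← map_mul] at h
    exact (mul_inv_eq_iff_eq_mul.1 (op_injective ρ hρ h)).symm
  have : Finite L := inferInstance
  have hcy : IsCyclic χ.range := Subgroup.isCyclic χ.range
  have hq' : IsCyclic (D ⧸ χ.ker) := isCyclic_of_surjective _
    (QuotientGroup.quotientKerEquivRange χ).symm.surjective
  exact isCyclic_of_surjective (QuotientGroup.map χ.ker F (MonoidHom.id D) hker)
    (QuotientGroup.map_surjective_of_surjective _ _ _ (by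
      exact QuotientGroup.mk_surjective) hker)

end Semilinear

omit [Group.IsSolvable D] in
/-- The representation over the prime field. -/
theorem exists_rep {q : ℕ} [Fact q.Prime] [Module (ZMod q) E] :
    ∃ ρ : D →* (E ≃ₗ[ZMod q] E), ∀ (d : D) (x : E), ρ d x = d • x := by
  let lin : D → (E ≃ₗ[ZMod q] E) := fun d =>
    LinearEquiv.ofBijective ((DistribMulAction.toAddMonoidHom E d).toZModLinearMap q)
      (MulAction.bijective d)
  have happ : ∀ (d : D) (x : E), lin d x = d • x := fun d x => rfl
  exact ⟨{ toFun := lin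
           map_one' := LinearEquiv.ext fun x => (happ 1 x).trans (one_smul D x)
           map_mul' := fun g h => LinearEquiv.ext fun x =>
             (happ (g * h) x).trans ((mul_smul g h x).trans (by
               rw [LinearEquiv.mul_apply, happ, happ])) }, happ⟩

include hodd hq hE htrans in
/-- `D/F(D)` is cyclic. -/
theorem quotient_cyclic : IsCyclic (D ⧸ Cfsg.fittingSubgroup D) := by
  have : Fact q.Prime := ⟨hq⟩
  obtain ⟨hFc, -, -⟩ := fitting_structure hodd hq hE htrans
  let _ := AddCommGroup.zmodModule (G := E) hE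
  obtain ⟨ρ, hρa⟩ := exists_rep (D := D) (E := E) (q := q)
  refine quotient_cyclic_of_selfcentralizing (ρ := ρ)
    (fun g h e => FaithfulSMul.eq_of_smul_eq_smul (α := E) fun x => by rw [← hρa, ← hρa, e])
    (fun v w hv hw => (htrans v w hv hw).imp fun g hg => (hρa g v).trans hg) inferInstance
    (fun a ha b hb => congrArg Subtype.val
      ((IsCyclic.commGroup (α := Cfsg.fittingSubgroup D)).mul_comm ⟨a, ha⟩ ⟨b, hb⟩))
    Cores.centralizer_fittingSubgroup_le

end Cfsg.Agent.OddPre.TransOdd
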