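import Cfsg.Agent.RankOne.Nilpotent
import Cfsg.Agent.OddPre.TransOdd

/-!
The rank-one set-up with solvable two-point stabiliser: the inverted set is a cyclic subgroup and
`V/W` is cyclic.
-/

set_option autoImplicit false

namespace Cfsg.Agent.OddPre.RankOneK

open Subgroup MulAction
open Cfsg.Agent.RankOne

variable {G Ω : Type*} [Group G] [Finite G] [MulAction G Ω]
  [FaithfulSMul G Ω] {a : Ω} {t : G} {Q : Subgroup G}

theorem structure_K (hS : Cfsg.IsRankOneSetup G Ω a t Q)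
    (h2 : ∃ x y : G, x ≠ 1 ∧ y ≠ 1 ∧ x ≠ y ∧ x * x = 1 ∧ y * y = 1 ∧ x * y = y * x)
    [Group.IsSolvable (D a t)] :
    (∃ k₀ ∈ K a t, (zpowers k₀ : Set G) = K a t ∧
      ∀ d ∈ D a t, ∀ c ∈ zpowers k₀, d * c * d⁻¹ ∈ zpowers k₀) ∧
    ∃ v ∈ D a t, t * v = v * t ∧ ∀ y ∈ D a t, t * y = y * t →
      ∃ n : ℤ, ∀ z ∈ K a t, z * (y * (v ^ n)⁻¹) = y * (v ^ n)⁻¹ * z := by
  classical
  have htt : t * t = 1 := hS.mul_self
  obtain ⟨s₀, r₀, hs₀, hr₀, he₀⟩ := exists_structure hS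
  have hIQ : ∀ u ∈ Ia G a, u ∈ Q := fun u hu => invol_mem_Q hS (mem_Ia.1 hu).2.2 (mem_Ia.1 hu).1
  have hcm : ∀ u ∈ Ia G a, ∀ w ∈ Ia G a, u * w = w * u := fun u hu w hw =>
    Ia_central hS h2 hu (hIQ w hw)
  let E : Subgroup G :=
    { carrier := {u | u ∈ Ia G a ∨ u = 1}
      one_mem' := Or.inr rfl
      mul_mem' := by
        rintro u w (hu | rfl) (hw | rfl)
        · by_cases h1 : u * w = 1
          · exact Or.inr h1
          obtain ⟨hua, -, huu⟩ := mem_Ia.1 hu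
          obtain ⟨hwa, -, hww⟩ := mem_Ia.1 hw
          refine Or.inl (mem_Ia.2 ⟨by rw [mul_smul, hwa, hua], h1, ?_⟩)
          calc u * w * (u * w) = u * (w * u) * w := by group
            _ = (u * u) * (w * w) := by rw [← hcm u hu w hw]; group
            _ = 1 := by rw [huu, hww, one_mul]
        · exact Or.inl (by simpa using hu)
        · exact Or.inl (by simpa using hw)
        · exact Or.inr (one_mul 1)
      inv_mem' := by
        rintro u (hu | rfl)
        · exact Or.inl (by rwa [inv_eq_of_mul_eq_one_left (mem_Ia.1 hu).2.2])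
        · exact Or.inr inv_one }
  have hEmem : ∀ {u : G}, u ∈ E ↔ u ∈ Ia G a ∨ u = 1 := Iff.rfl
  let _ : CommGroup E := { (inferInstance : Group E) with
    mul_comm := fun u w => Subtype.ext (by
      show (u : G) * w = w * u
      rcases hEmem.1 u.2 with hu | hu
      · rcases hEmem.1 w.2 with hw | hw
        · exact hcm _ hu _ hw
        · rw [hw, one_mul, mul_one]
      · rw [hu, one_mul, mul_one]) }
  have hconj : ∀ d ∈ D a t, ∀ u ∈ E, d * u * d⁻¹ ∈ E := by
    intro d hd u hu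
    rcases hEmem.1 hu with hu | hu
    · exact hEmem.2 (Or.inl (conj_mem_Ia hS hu hd.1))
    · exact hEmem.2 (Or.inr (by rw [hu, mul_one, mul_inv_cancel]))
  let ψ : D a t →* MulAut E :=
    { toFun := fun d =>
        { toFun := fun u => ⟨d * u * (d : G)⁻¹, hconj d d.2 u u.2⟩
          invFun := fun u => ⟨(d : G)⁻¹ * u * d, by
            simpa using hconj (d : G)⁻¹ (inv_mem d.2) u u.2⟩
          left_inv := fun u => Subtype.ext (by simp [mul_assoc])
          right_inv := fun u => Subtype.ext (by simp [mul_assoc])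
          map_mul' := fun u w => Subtype.ext (by simp [mul_assoc]) }
      map_one' := MulEquiv.ext fun u => Subtype.ext (by simp)
      map_mul' := fun d d' => MulEquiv.ext fun u => Subtype.ext (by simp [mul_assoc]) }
  have hψ : ∀ (d : D a t) (u : E), ((ψ d u : E) : G) = d * u * (d : G)⁻¹ := fun _ _ => rfl
  -- the kernel is `C_V(K)`
  have hker : ∀ d : D a t, d ∈ ψ.ker ↔ (t * (d : G) = d * t ∧ ∀ z ∈ K a t, z * (d : G) = d * z) := by
    intro d
    rw [cent_K_iff hS d.2, MonoidHom.mem_ker]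
    constructor
    · intro h u hu
      have h1 : (d : G) * u * (d : G)⁻¹ = u :=
        congrArg Subtype.val (DFunLike.congr_fun h ⟨u, hEmem.2 (Or.inl hu)⟩)
      exact (mul_inv_eq_iff_eq_mul.1 h1).symm
    · intro h
      refine MulEquiv.ext fun u => Subtype.ext ?_
      rw [hψ, MulAut.one_apply]
      rcases hEmem.1 u.2 with hu | hu
      · rw [← h _ hu, mul_inv_cancel_right]
      · rw [hu]; group
  -- the action of the image
  let W := ψ.ker
  let Db := D a t ⧸ W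
  let θ : Db →* MulAut E := QuotientGroup.kerLift ψ
  have hθ : ∀ (d : D a t) (u : E), θ (QuotientGroup.mk d) u = ψ d u := fun _ _ => rfl
  letI act : DistribMulAction Db (Additive E) :=
    { smul := fun x e => Additive.ofMul (θ x (Additive.toMul e))
      one_smul := fun e => by show Additive.ofMul (θ 1 (Additive.toMul e)) = e; rw [map_one]; rfl
      mul_smul := fun x y e => by
        show Additive.ofMul (θ (x * y) (Additive.toMul e)) =
          Additive.ofMul (θ x (Additive.toMul (Additive.ofMul (θ y (Additive.toMul e)))))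
        rw [map_mul]; rfl
      smul_zero := fun x => by show Additive.ofMul (θ x 1) = 0; rw [map_one]; rfl
      smul_add := fun x e f => by
        show Additive.ofMul (θ x (Additive.toMul e * Additive.toMul f)) = _
        rw [map_mul]; rfl }
  have hsm : ∀ (x : Db) (e : Additive E), x • e = Additive.ofMul (θ x (Additive.toMul e)) :=
    fun _ _ => rfl
  have : FaithfulSMul Db (Additive E) := ⟨fun {x y} h => QuotientGroup.kerLift_injective ψ
    (MulEquiv.ext fun u => Additive.ofMul.injective (h (Additive.ofMul u)))⟩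
  have : Nontrivial (Additive E) := ⟨⟨Additive.ofMul ⟨s₀, hEmem.2 (Or.inl hs₀)⟩, 0,
    fun h => (mem_Ia.1 hs₀).2.1 (congrArg (fun e : Additive E => ((Additive.toMul e : E) : G)) h)⟩⟩
  have hodd : Odd (Nat.card Db) := (odd_D hS).of_dvd_nat (card_quotient_dvd_card W)
  have h2E : ∀ e : Additive E, 2 • e = 0 := by
    intro e
    rw [two_nsmul]
    show Additive.ofMul (Additive.toMul e * Additive.toMul e) = Additive.ofMul 1
    refine congrArg _ (Subtype.ext ?_)
    rcases hEmem.1 (Additive.toMul e).2 with hu | hu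
    · exact (mem_Ia.1 hu).2.2
    · show ((Additive.toMul e : E) : G) * (Additive.toMul e : E) = 1
      rw [hu, one_mul]
  have hIne : ∀ {e : Additive E}, e ≠ 0 → ((Additive.toMul e : E) : G) ∈ Ia G a := fun {e} he =>
    (hEmem.1 (Additive.toMul e).2).resolve_right fun h => he (congrArg Additive.ofMul
      (Subtype.ext h : (Additive.toMul e : E) = 1))
  have htrans : TransOdd.Trans Db (Additive E) := by
    intro e f he hf
    obtain ⟨k, hk, hkk⟩ := K_transitive hS (hIne he) (hIne hf)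
    refine ⟨QuotientGroup.mk ⟨k⁻¹, inv_mem hk.1⟩, ?_⟩
    rw [hsm, hθ]
    refine congrArg Additive.ofMul (Subtype.ext ?_ : _ = Additive.toMul f)
    rw [hψ]
    simpa using hkk
  obtain ⟨hFc, hfpf, -⟩ := TransOdd.fitting_structure hodd Nat.prime_two h2E htrans
  have hcyc := TransOdd.quotient_cyclic hodd Nat.prime_two h2E htrans
  set Fb := Cfsg.fittingSubgroup Db with hFb
  -- the automorphism induced by `t`
  let τ : D a t ≃* D a t :=
    { toFun := fun d => ⟨t * d * t, D_conj_t hS d.2⟩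
      invFun := fun d => ⟨t * d * t, D_conj_t hS d.2⟩
      left_inv := fun d => Subtype.ext (conj_conj_self htt _)
      right_inv := fun d => Subtype.ext (conj_conj_self htt _)
      map_mul' := fun x y => Subtype.ext (conj_mul_conj htt _ _).symm }
  have hτW : ∀ w ∈ W, τ w = w := fun w hw => Subtype.ext (by
    show t * (w : G) * t = w
    rw [((hker w).1 hw).1, mul_assoc, htt, mul_one])
  let τb : Db ≃* Db := QuotientGroup.congr W W τ (by
    ext x
    constructor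
    · rintro ⟨w, hw, rfl⟩
      show τ w ∈ W
      rwa [hτW w hw]
    · exact fun hx => ⟨x, hx, hτW x hx⟩)
  have hτb : ∀ d : D a t, τb (QuotientGroup.mk d) = QuotientGroup.mk (τ d) := fun _ => rfl
  set X := Fb.comap (QuotientGroup.mk' W) with hX
  have hXτ : ∀ x ∈ X, τ x ∈ X := by
    intro x hx
    show QuotientGroup.mk (τ x) ∈ Fb
    rw [← hτb, hFb, ← Cores.map_fittingSubgroup_equiv τb]
    exact ⟨_, hx, rfl⟩
  have hXn : ∀ x ∈ X, ∀ d : D a t, d * x * d⁻¹ ∈ X := fun x hx d =>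
    (Subgroup.Normal.comap inferInstance (QuotientGroup.mk' W)).conj_mem x hx d
  have hab : ∀ x ∈ Fb, ∀ y ∈ Fb, x * y = y * x := fun x hx y hy =>
    congrArg Subtype.val ((IsCyclic.commGroup (α := Fb)).mul_comm ⟨x, hx⟩ ⟨y, hy⟩)
  have hodd2 : ∀ {H : Type _} [Group H] [Finite H], Odd (Nat.card H) → ∀ (S : Subgroup H) (x : H),
      x * x ∈ S → x ∈ S := by
    intro H _ _ ho S x hx
    obtain ⟨m, hm⟩ := ho
    have h1 : x * (x * x) ^ m = 1 := by rw [← sq, ← pow_mul, ← pow_succ', ← hm, pow_card_eq_one']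
    rw [eq_inv_of_mul_eq_one_left h1]
    exact inv_mem (pow_mem hx m)
  -- `V` fixes the distinguished involution
  have hVfix : ∀ y ∈ D a t, t * y = y * t → y * s₀ * y⁻¹ = s₀ := by
    intro y hy hty
    have hyt : t * y⁻¹ = y⁻¹ * t := ((show Commute t y from hty).inv_right).eq
    refine (structure_unique hS (conj_mem_Ia hS hs₀ hy.1) (hS.conj_mem y hy.1 r₀ hr₀) ?_ hs₀ hr₀ he₀).1
    calc t * (y * s₀ * y⁻¹) * t = (t * y) * s₀ * (y⁻¹ * t) := by group
      _ = y * (t * s₀ * t) * y⁻¹ := by rw [hty, ← hyt]; group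
      _ = y * (r₀⁻¹ * t * r₀) * y⁻¹ := by rw [he₀]
      _ = (y * r₀ * y⁻¹)⁻¹ * (y * t * y⁻¹) * (y * r₀ * y⁻¹) := by group
      _ = (y * r₀ * y⁻¹)⁻¹ * t * (y * r₀ * y⁻¹) := by rw [← hty, mul_inv_cancel_right]
  have hXV : ∀ x ∈ X, t * (x : G) = x * t → x ∈ W := by
    intro x hx hxt
    by_contra hxW
    have h1 : (QuotientGroup.mk x : Db) ≠ 1 := fun h => hxW ((QuotientGroup.eq_one_iff x).1 h)
    refine (mem_Ia.1 hs₀).2.1 ?_
    have h := hfpf _ hx h1 (Additive.ofMul ⟨s₀, hEmem.2 (Or.inl hs₀)⟩) (by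
      rw [hsm]
      exact congrArg Additive.ofMul (Subtype.ext (hVfix x x.2 hxt)))
    exact congrArg (fun e : Additive E => ((Additive.toMul e : E) : G)) h
  -- decomposition inside `X`
  have hdec : ∀ x ∈ X, ∃ w ∈ W, ∃ k : D a t, (k : G) ∈ K a t ∧ k ∈ X ∧ x = w * k := by
    intro x hx
    obtain ⟨y, hy, hty, k, hk, hyk⟩ :=
      inverted_factor htt (odd_D hS) (D_normalized hS) x.2
    set y' : D a t := ⟨y, hy⟩
    set k' : D a t := ⟨k, hk.1⟩
    have hx' : x = y' * k' := Subtype.ext hyk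
    have hτx : τ x = y' * k'⁻¹ := Subtype.ext (by
      show t * (x : G) * t = y * k⁻¹
      rw [hyk, ← ((mem_K hS).1 hk).2, ← mul_assoc t y, hty]
      simp [mul_assoc])
    have hk2 : k' * k' ∈ X := by
      have := X.mul_mem (X.inv_mem (hXτ x hx)) hx
      rwa [hτx, hx', mul_inv_rev, inv_inv, mul_assoc, inv_mul_cancel_left] at this
    have hkX : k' ∈ X := hodd2 (odd_D hS) X k' hk2
    have hyX : y' ∈ X := by
      have := X.mul_mem hx (X.inv_mem hkX)
      rwa [hx', mul_inv_cancel_right] at this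
    exact ⟨y', hXV y' hyX hty, k', hk, hkX, hx'⟩
  have hτK : ∀ k : D a t, (k : G) ∈ K a t → τ k = k⁻¹ := fun k hk =>
    Subtype.ext ((mem_K hS).1 hk).2
  have hmkW : ∀ {w : D a t}, w ∈ W → (QuotientGroup.mk w : Db) = 1 := fun hw =>
    (QuotientGroup.eq_one_iff _).2 hw
  have hτF : ∀ f ∈ Fb, τb f = f⁻¹ := by
    intro f hf
    obtain ⟨x, rfl⟩ := QuotientGroup.mk_surjective f
    obtain ⟨w, hw, k, hk, -, rfl⟩ := hdec x hf
    rw [QuotientGroup.mk_mul, hmkW hw, one_mul, hτb, hτK k hk]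
    rfl
  -- every inverted element lies in `X`
  have hKX : ∀ k : D a t, (k : G) ∈ K a t → k ∈ X := by
    intro k hk
    show (QuotientGroup.mk k : Db) ∈ Fb
    set kb : Db := QuotientGroup.mk k with hkb
    refine hodd2 hodd Fb kb (Cores.centralizer_fittingSubgroup_le ?_)
    rw [mem_centralizer_iff]
    intro f hf
    have hc : kb * f * kb⁻¹ ∈ Fb := (inferInstance : Fb.Normal).conj_mem f hf kb
    have h1 := hτF _ hc
    rw [map_mul, map_mul, map_inv, hτF f hf, hkb, hτb, hτK k hk, QuotientGroup.mk_inv, ← hkb,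
      inv_inv] at h1
    have h2 : kb⁻¹ * f⁻¹ * kb = kb * f⁻¹ * kb⁻¹ := h1.trans (by group)
    have h3 : f⁻¹ * (kb * kb) = kb * kb * f⁻¹ := by
      calc f⁻¹ * (kb * kb) = kb * (kb⁻¹ * f⁻¹ * kb) * kb := by simp only [mul_assoc, mul_inv_cancel_left]
        _ = kb * (kb * f⁻¹ * kb⁻¹) * kb := by rw [h2]
        _ = kb * kb * f⁻¹ := by simp only [mul_assoc, inv_mul_cancel, mul_one]
    have h4 : Commute f⁻¹ (kb * kb) := h3
    simpa using h4.inv_left.eq
  -- a generator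
  obtain ⟨g, hg⟩ := hFc.exists_generator
  obtain ⟨x₀, hx₀⟩ := QuotientGroup.mk_surjective (g : Db)
  have hx₀X : x₀ ∈ X := by show (QuotientGroup.mk x₀ : Db) ∈ Fb; rw [hx₀]; exact g.2
  obtain ⟨w₀, hw₀, k₀, hk₀, hk₀X, hxk⟩ := hdec x₀ hx₀X
  have hk₀g : (QuotientGroup.mk k₀ : Db) = g := by
    rw [← hx₀, hxk, QuotientGroup.mk_mul, hmkW hw₀, one_mul]
  have hpow : ∀ i : ℤ, (k₀ : G) ^ i ∈ K a t := by
    intro i
    refine (mem_K hS).2 ⟨zpow_mem k₀.2 i, ?_⟩
    have h : τ (k₀ ^ i) = (k₀ ^ i)⁻¹ := by rw [map_zpow, hτK k₀ hk₀, inv_zpow]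
    exact (congrArg (fun z : D a t => (z : G)) h)
  have hgen : ∀ z ∈ K a t, z ∈ zpowers (k₀ : G) := by
    intro z hz
    set z' : D a t := ⟨z, hz.1⟩
    obtain ⟨i, hi⟩ := mem_zpowers_iff.1 (hg ⟨_, hKX z' hz⟩)
    have hi' : (g : Db) ^ i = QuotientGroup.mk z' := congrArg Subtype.val hi
    have hw : z' * (k₀ ^ i)⁻¹ ∈ W := by
      rw [← QuotientGroup.eq_one_iff, QuotientGroup.mk_mul, QuotientGroup.mk_inv,
        QuotientGroup.mk_zpow, hk₀g, hi', mul_inv_cancel]
    set w := z' * (k₀ ^ i)⁻¹ with hwdef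
    have hwt : t * (w : G) = w * t := ((hker w).1 hw).1
    have hu := inverted_factor_unique (X := D a t) htt (odd_D hS) (D_normalized hS)
      (y := (1 : G)) (y' := (w : G)) (z := z) (z' := (k₀ : G) ^ i) (by simp) hwt hz (hpow i)
      (by rw [hwdef]; simp [z'])
    exact mem_zpowers_iff.2 ⟨i, hu.2.symm⟩
  have hKset : (zpowers (k₀ : G) : Set G) = K a t := by
    ext z
    refine ⟨fun hz => ?_, hgen z⟩
    obtain ⟨i, rfl⟩ := mem_zpowers_iff.1 hz
    exact hpow i
  refine ⟨⟨(k₀ : G), hk₀, hKset, fun d hd c hc => ?_⟩, ?_⟩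
  · obtain ⟨y, hy, hty, z, hz, rfl⟩ := inverted_factor htt (odd_D hS) (D_normalized hS) hd
    have hyt : t * y⁻¹ = y⁻¹ * t := ((show Commute t y from hty).inv_right).eq
    have hcK : c ∈ K a t := hKset ▸ hc
    have hzc : z * c * z⁻¹ = c := by
      obtain ⟨i, rfl⟩ := mem_zpowers_iff.1 (hgen z hz)
      obtain ⟨j, rfl⟩ := mem_zpowers_iff.1 hc
      group
    rw [show y * z * c * (y * z)⁻¹ = y * (z * c * z⁻¹) * y⁻¹ by group, hzc]
    refine hgen _ ((mem_K hS).2 ⟨mul_mem (mul_mem hy hcK.1) (inv_mem hy), ?_⟩)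
    calc t * (y * c * y⁻¹) * t = (t * y) * c * (y⁻¹ * t) := by group
      _ = y * (t * c * t) * y⁻¹ := by rw [hty, ← hyt]; group
      _ = (y * c * y⁻¹)⁻¹ := by rw [((mem_K hS).1 hcK).2]; group
  · -- `V/W` is cyclic
    let V : Subgroup (D a t) := (centralizer ({t} : Set G)).comap (D a t).subtype
    have hV : ∀ y : D a t, y ∈ V ↔ t * (y : G) = y * t := fun y =>
      (mem_centralizer_iff.trans ⟨fun h => h t rfl, fun h w hw => by
        rw [Set.mem_singleton_iff.1 hw]; exact h⟩)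
    let f : D a t →* Db ⧸ Fb := (QuotientGroup.mk' Fb).comp (QuotientGroup.mk' W)
    have : IsCyclic (Db ⧸ Fb) := hcyc
    obtain ⟨⟨gg, hgg⟩, hgen'⟩ := IsCyclic.exists_generator (α := V.map f)
    obtain ⟨v, hvV, hv⟩ := hgg
    refine ⟨(v : G), v.2, (hV v).1 hvV, fun y hy hty => ?_⟩
    set y' : D a t := ⟨y, hy⟩
    obtain ⟨n, hn⟩ := mem_zpowers_iff.1 (hgen' ⟨f y', mem_map_of_mem f ((hV y').2 hty)⟩)
    have hn' : f v ^ n = f y' := by rw [hv]; exact congrArg Subtype.val hn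
    have hmem : y' * (v ^ n)⁻¹ ∈ X := by
      show (QuotientGroup.mk (y' * (v ^ n)⁻¹) : Db) ∈ Fb
      rw [← QuotientGroup.eq_one_iff]
      show f (y' * (v ^ n)⁻¹) = 1
      rw [map_mul, map_inv, map_zpow, hn', mul_inv_cancel]
    have hcomm : t * ((y' * (v ^ n)⁻¹ : D a t) : G) = (y' * (v ^ n)⁻¹ : D a t) * t :=
      (hV _).1 (V.mul_mem ((hV y').2 hty) (V.inv_mem (V.zpow_mem hvV n)))
    refine ⟨n, fun z hz => ?_⟩
    simpa [y'] using ((hker _).1 (hXV _ hmem hcomm)).2 z hz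


/-- A Sylow 2-subgroup of `Q` is abelian or a Suzuki 2-group. -/
theorem suzuki_type (hS : Cfsg.IsRankOneSetup G Ω a t Q)
    (h2 : ∃ x y : G, x ≠ 1 ∧ y ≠ 1 ∧ x ≠ y ∧ x * x = 1 ∧ y * y = 1 ∧ x * y = y * x)
    [Group.IsSolvable (D a t)] (S : Sylow 2 ↥Q) :
    IsMulCommutative (S : Subgroup ↥Q) ∨ Cfsg.IsSuzukiTwoGroup ↥(S : Subgroup ↥Q) := by
  by_cases hab : IsMulCommutative (S : Subgroup ↥Q)
  · exact Or.inl hab
  right
  have : Fact (Nat.Prime 2) := ⟨Nat.prime_two⟩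
  have hQn : Group.IsNilpotent Q := Q_nilpotent hS h2
  have hu : Unique (Sylow 2 Q) := Sylow.unique_of_normal S inferInstance
  have hmemS : ∀ x : Q, (∃ k : ℕ, x ^ 2 ^ k = 1) → x ∈ (S : Subgroup Q) := by
    intro x ⟨k, hk⟩
    obtain ⟨j, -, hj⟩ := (Nat.dvd_prime_pow Nat.prime_two).1 (orderOf_dvd_of_pow_eq_one hk)
    obtain ⟨T, hT⟩ := (IsPGroup.of_card (n := j)
      (show Nat.card (zpowers x) = 2 ^ j by rw [Nat.card_zpowers, hj])).exists_le_sylow
    rw [show S = T from (Unique.eq_default S).trans (Unique.eq_default T).symm]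
    exact hT (mem_zpowers x)
  have hIS : ∀ u ∈ Ia G a, ∃ h : u ∈ Q, (⟨u, h⟩ : Q) ∈ (S : Subgroup Q) := fun u hu =>
    ⟨invol_mem_Q hS (mem_Ia.1 hu).2.2 (mem_Ia.1 hu).1,
      hmemS _ ⟨1, Subtype.ext (by simpa [sq] using (mem_Ia.1 hu).2.2)⟩⟩
  obtain ⟨⟨k₀, hk₀, hKset, -⟩, -⟩ := structure_K hS h2
  set C := zpowers k₀
  have hCD : C ≤ D a t := zpowers_le.2 hk₀.1
  have hQc : ∀ c : C, ∀ u ∈ Q, (c : G) * u * (c : G)⁻¹ ∈ Q := fun c u hu =>
    hS.conj_mem c (hCD c.2).1 u hu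
  have hSc : ∀ (c : C) (x : (S : Subgroup Q)),
      (⟨(c : G) * ((x : Q) : G) * (c : G)⁻¹, hQc c _ (x : Q).2⟩ : Q) ∈ (S : Subgroup Q) := by
    intro c x
    obtain ⟨k, hk⟩ := S.2 x
    refine hmemS _ ⟨k, Subtype.ext ?_⟩
    have : ((x : Q) : G) ^ 2 ^ k = 1 := congrArg (fun z : (S : Subgroup Q) => ((z : Q) : G)) hk
    simp [conj_pow, this]
  let χ : C →* MulAut (S : Subgroup Q) :=
    { toFun := fun c =>
        { toFun := fun x => ⟨_, hSc c x⟩
          invFun := fun x => ⟨_, hSc c⁻¹ x⟩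
          left_inv := fun x => Subtype.ext (Subtype.ext (by simp [mul_assoc]))
          right_inv := fun x => Subtype.ext (Subtype.ext (by simp [mul_assoc]))
          map_mul' := fun x y => Subtype.ext (Subtype.ext (by simp [mul_assoc])) }
      map_one' := MulEquiv.ext fun x => Subtype.ext (Subtype.ext (by simp))
      map_mul' := fun c c' => MulEquiv.ext fun x => Subtype.ext (Subtype.ext (by simp [mul_assoc])) }
  refine ⟨inferInstance, S.2, ?_, ?_, χ.range,
    isCyclic_of_surjective χ.rangeRestrict χ.rangeRestrict_surjective, ?_⟩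
  · by_contra! hc
    exact hab ⟨⟨hc⟩⟩
  · obtain ⟨s₁, hs₁, s₂, hs₂, hne, -⟩ := exists_two_Ia hS h2
    obtain ⟨h₁, h₁S⟩ := hIS s₁ hs₁
    obtain ⟨h₂, h₂S⟩ := hIS s₂ hs₂
    refine ⟨⟨_, h₁S⟩, ⟨_, h₂S⟩, fun e => hne ?_, fun e => (mem_Ia.1 hs₁).2.1 ?_, ?_,
      fun e => (mem_Ia.1 hs₂).2.1 ?_, ?_⟩
    · exact congrArg (fun z : (S : Subgroup Q) => ((z : Q) : G)) e
    · exact congrArg (fun z : (S : Subgroup Q) => ((z : Q) : G)) e
    · exact Subtype.ext (Subtype.ext (mem_Ia.1 hs₁).2.2)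
    · exact congrArg (fun z : (S : Subgroup Q) => ((z : Q) : G)) e
    · exact Subtype.ext (Subtype.ext (mem_Ia.1 hs₂).2.2)
  · intro x y hx1 hxx hy1 hyy
    have hI : ∀ z : (S : Subgroup Q), z ≠ 1 → z * z = 1 → ((z : Q) : G) ∈ Ia G a := fun z h1 h =>
      mem_Ia.2 ⟨Q_fix hS (z : Q).2, fun e => h1 (Subtype.ext (Subtype.ext e)),
        congrArg (fun w : (S : Subgroup Q) => ((w : Q) : G)) h⟩
    have hxI := hI x hx1 hxx
    obtain ⟨k, hk, hkk⟩ := K_transitive hS hxI (hI y hy1 hyy)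
    have hkC : k⁻¹ ∈ C := C.inv_mem (by
      rw [← SetLike.mem_coe, hKset]; exact hk)
    refine ⟨⟨χ ⟨k⁻¹, hkC⟩, _, rfl⟩, Subtype.ext (Subtype.ext ?_), ?_⟩
    · show k⁻¹ * ((x : Q) : G) * k⁻¹⁻¹ = _
      rw [inv_inv, hkk]
    · rintro ⟨_, c, rfl⟩ hc
      have hc' : (c : G) * ((x : Q) : G) * (c : G)⁻¹ = ((y : Q) : G) :=
        congrArg (fun w : (S : Subgroup Q) => ((w : Q) : G)) hc
      have hcK : (c : G)⁻¹ ∈ K a t := by
        rw [← hKset, SetLike.mem_coe]; exact C.inv_mem c.2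
      have := K_conj_injective hS hxI hcK hk (by rw [inv_inv, hc', hkk])
      refine Subtype.ext (congrArg χ (Subtype.ext ?_))
      show (c : G) = k⁻¹
      rw [← this, inv_inv]

end Cfsg.Agent.OddPre.RankOneK
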