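import Mathlib.GroupTheory.SchurZassenhaus
import Cfsg.Agent.OddPre.InvCore
import Cfsg.Agent.OddPre.PuigCenter
import Cfsg.Agent.PGroup.Rank
import Cfsg.Agent.Cores.Pi
import Cfsg.Prelude.Def_OddOrderLocal

/-!
The transitivity theorem for abelian `p`-subgroups of rank at least three.
-/

set_option linter.style.haveILetI false

namespace Cfsg.Agent.OddPre.TransMain

open scoped commutatorElement Pointwise

variable {G : Type*} [Group G] [Finite G] {p : ℕ} [hp : Fact p.Prime]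

theorem class_two_of_sylow (h2 : ∀ S : Sylow p G, Group.IsNilpotent (S : Subgroup G) ∧
      Group.nilpotencyClass (S : Subgroup G) ≤ 2)
    (P : Subgroup G) (hP : IsPGroup p P) :
    ∀ x ∈ P, ∀ y ∈ P, ∀ z ∈ P, Commute ⁅x, y⁆ z := by
  intro x hx y hy z hz
  obtain ⟨S, hS⟩ := hP.exists_le_sylow
  obtain ⟨hn, hcl⟩ := h2 S
  have h1 : (⊤ : Subgroup ↥(S : Subgroup G)).lowerCentralSeries 2 = ⊥ := by
    rw [eq_bot_iff, ← Subgroup.lowerCentralSeries_nilpotencyClass]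
    exact Subgroup.lowerCentralSeries_antitone _ hcl
  have h3 : ⁅⁅(⟨x, hS hx⟩ : ↥(S : Subgroup G)), (⟨y, hS hy⟩ : ↥(S : Subgroup G))⁆,
      (⟨z, hS hz⟩ : ↥(S : Subgroup G))⁆ ∈
      (⊤ : Subgroup ↥(S : Subgroup G)).lowerCentralSeries 2 :=
    Subgroup.commutator_mem_commutator
      (Subgroup.commutator_mem_commutator (Subgroup.mem_top _) (Subgroup.mem_top _)) (Subgroup.mem_top _)
  rw [h1, Subgroup.mem_bot] at h3
  exact commutatorElement_eq_one_iff_mul_comm.1 (congrArg Subtype.val h3)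

/-- `p'`-elements of `C(E)` lie in `O_{p'}(C(E))`. -/
theorem mem_piCore_of_coprime (E : Subgroup G) (hEp : IsPGroup p E) (hEc : IsMulCommutative E)
    (hEfull : ∀ x ∈ Subgroup.centralizer (E : Set G), IsPGroup p (Subgroup.zpowers x) → x ∈ E)
    {c : G} (hc : c ∈ Subgroup.centralizer (E : Set G)) (hcp : (orderOf c).Coprime p) :
    c ∈ Cfsg.piCoreOf (Cfsg.primesNotDvd p) (Subgroup.centralizer (E : Set G)) := by
  set C := Subgroup.centralizer (E : Set G) with hC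
  have hEC : E ≤ C := fun e he => Subgroup.mem_centralizer_iff.2 fun f hf =>
    congrArg Subtype.val (hEc.is_comm.comm ⟨f, hf⟩ ⟨e, he⟩)
  haveI hEn : (E.subgroupOf C).Normal := ⟨fun e he x => by
    have h : x * e * x⁻¹ = e := by
      apply Subtype.ext
      change (x : G) * e * (x : G)⁻¹ = e
      rw [← Subgroup.mem_centralizer_iff.1 x.2 e he, mul_inv_cancel_right]
    rw [h]; exact he⟩
  obtain ⟨i, hi⟩ := IsPGroup.iff_card.1 hEp
  have hcardE : Nat.card (E.subgroupOf C) = p ^ i := by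
    rw [Nat.card_congr (Subgroup.subgroupOfEquivOfLe hEC).toEquiv, hi]
  have hidx : ¬ p ∣ (E.subgroupOf C).index := by
    intro hdvd
    rw [Subgroup.index_eq_card] at hdvd
    obtain ⟨t, ht⟩ := exists_prime_orderOf_dvd_card' p hdvd
    obtain ⟨x, rfl⟩ := QuotientGroup.mk'_surjective (E.subgroupOf C) t
    have hxE : (x : G) ^ p ∈ E := by
      have h := pow_orderOf_eq_one (QuotientGroup.mk' (E.subgroupOf C) x)
      rw [ht, ← map_pow] at h
      exact (QuotientGroup.eq_one_iff (x ^ p)).1 h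
    have hxp : IsPGroup p (Subgroup.zpowers (x : G)) := by
      obtain ⟨j, hj⟩ := hEp ⟨_, hxE⟩
      have hj' : ((x : G) ^ p) ^ p ^ j = 1 := congrArg Subtype.val hj
      rw [← pow_mul, ← pow_succ'] at hj'
      obtain ⟨l, -, hl⟩ := (Nat.dvd_prime_pow hp.out).1 (orderOf_dvd_of_pow_eq_one hj')
      exact IsPGroup.of_card (n := l) (by rw [Nat.card_zpowers, hl])
    have hx1 : QuotientGroup.mk' (E.subgroupOf C) x = 1 :=
      (QuotientGroup.eq_one_iff x).2 (hEfull _ x.2 hxp)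
    rw [hx1, orderOf_one] at ht
    exact hp.out.ne_one ht.symm
  obtain ⟨H, hH⟩ := Subgroup.exists_right_complement'_of_coprime
    (N := E.subgroupOf C) (hcardE ▸ (hp.out.coprime_iff_not_dvd.2 hidx).pow_left i)
  haveI hHn : H.Normal := by
    rw [← Subgroup.normalizer_eq_top_iff, eq_top_iff, ← hH.sup_eq_top]
    refine sup_le (fun e he => Subgroup.centralizer_le_normalizer _ ?_) Subgroup.le_normalizer
    exact Subgroup.mem_centralizer_iff.2 fun x _ => Subtype.ext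
      (Subgroup.mem_centralizer_iff.1 x.2 e he).symm
  have hcH : (⟨c, hc⟩ : C) ∈ H := by
    rw [← QuotientGroup.eq_one_iff]
    refine orderOf_eq_one_iff.1 (Nat.eq_one_of_dvd_coprimes (hcp.pow_right i) ?_ ?_)
    · exact (orderOf_map_dvd (QuotientGroup.mk' H) (⟨c, hc⟩ : C)).trans
        (by rw [← Subgroup.orderOf_coe])
    · rw [← hcardE, ← hH.index_eq_card, Subgroup.index_eq_card]
      exact orderOf_dvd_natCard _
  refine ⟨⟨c, hc⟩, ?_, rfl⟩
  refine Cores.le_piCore hHn (fun q hq h => Set.mem_ofPred_eq ▸ (⟨hq, ?_⟩ : q.Prime ∧ ¬ q ∣ p)) hcH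
  intro hqp
  rw [(Nat.prime_dvd_prime_iff_eq hq hp.out).1 hqp] at h
  exact hidx (hH.symm.index_eq_card ▸ h)

theorem card_lt_of_lt {H K : Subgroup G} (h : H < K) : Nat.card H < Nat.card K :=
  Set.ncard_lt_ncard (s := (H : Set G)) (t := (K : Set G)) h (Set.toFinite _)

/-- A large fixed-point set outside an invariant subgroup. -/
theorem exists_big_fixed (A N D : Subgroup G) (hA : Cfsg.IsElementaryAbelian p A)
    (hcard : Nat.card A = p ^ 3) (hAN : A ≤ Subgroup.normalizer (N : Set G))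
    (hcop : (Nat.card N).Coprime p) (hDN : D < N) :
    ∃ B : Subgroup G, B ≤ A ∧ p ^ 2 ≤ Nat.card B ∧
      ¬ N ⊓ Subgroup.centralizer (B : Set G) ≤ D := by
  haveI := hA.1
  have hnc : ∀ A' : Subgroup G, A' ≤ A → p < Nat.card A' → ¬ IsCyclic A' := by
    intro A' hA' hlt hcyc
    obtain ⟨g, hg⟩ := IsCyclic.exists_ofOrder_eq_natCard (α := A')
    have h1 : orderOf (g : G) ∣ p := orderOf_dvd_of_pow_eq_one (hA.2 _ (hA' g.2))
    rw [Subgroup.orderOf_coe, hg] at h1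
    exact absurd (Nat.le_of_dvd hp.out.pos h1) (not_le.2 hlt)
  have hcopA : ∀ A' : Subgroup G, A' ≤ A → ∀ N' : Subgroup G, N' ≤ N →
      (Nat.card A').Coprime (Nat.card N') := fun A' hA' N' hN' =>
    (((hcop.symm.pow_left 3).coprime_dvd_left (hcard ▸ Subgroup.card_dvd_of_le hA')).coprime_dvd_right
      (Subgroup.card_dvd_of_le hN'))
  have hp3 : p < p ^ 3 := by
    calc p = p ^ 1 := (pow_one p).symm
      _ < p ^ 3 := Nat.pow_lt_pow_right hp.out.one_lt (by norm_num)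
  have hgen := Coprime.iSup_centralizer_eq (hnc A le_rfl (hcard ▸ hp3)) hAN (hcopA A le_rfl N le_rfl)
  obtain ⟨a, ⟨haA, ha1⟩, haD⟩ : ∃ a, (a ∈ A ∧ a ≠ 1) ∧ ¬ N ⊓ Subgroup.centralizer {a} ≤ D := by
    by_contra h
    push Not at h
    exact not_le_of_gt hDN (hgen ▸ iSup₂_le fun a ha => h a ha)
  -- a complement of `⟨a⟩` in `A`
  obtain ⟨A1, ⟨hA1A, haA1⟩, hA1max⟩ := Set.Finite.exists_maximal
    (s := {A1 : Subgroup G | A1 ≤ A ∧ a ∉ A1}) (Set.toFinite _)
    ⟨⊥, bot_le, fun h => ha1 (Subgroup.mem_bot.1 h)⟩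
  have hza : Nat.card (Subgroup.zpowers a) = p := by
    rw [Nat.card_zpowers]
    exact orderOf_eq_prime (hA.2 a haA) ha1
  have hsup : A ≤ A1 ⊔ Subgroup.zpowers a := by
    intro x hx
    by_cases ha' : a ∈ A1 ⊔ Subgroup.zpowers x
    · by_cases hxA1 : x ∈ A1
      · exact Subgroup.mem_sup_left hxA1
      · have hzx : A1 ⊓ Subgroup.zpowers x = ⊥ := by
          rw [eq_bot_iff]
          rintro y ⟨(hy1 : y ∈ A1), hy2⟩
          by_contra hy
          apply hxA1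
          haveI : Fact p.Prime := hp
          obtain ⟨i, rfl⟩ := Subgroup.mem_zpowers_iff.1 hy2
          have hx1 : orderOf x = p := orderOf_eq_prime (hA.2 x hx) (fun h => hy (by simp [h]))
          have hcop' : IsCoprime i (p : ℤ) := by
            rw [Int.isCoprime_iff_gcd_eq_one, Int.gcd_comm]
            refine (Nat.Prime.coprime_iff_not_dvd hp.out).2 fun h => hy ?_
            obtain ⟨c, hc⟩ := Int.natCast_dvd.2 h
            rw [hc, zpow_mul, zpow_natCast, hA.2 x hx, one_zpow]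
            exact Subgroup.mem_bot.2 rfl
          obtain ⟨u, v, huv⟩ := hcop'
          have : x = (x ^ i) ^ u := by
            calc x = x ^ (u * i + v * (p : ℤ)) := by rw [huv, zpow_one]
              _ = (x ^ i) ^ u := by
                rw [zpow_add, mul_comm u i, zpow_mul, mul_comm v (p : ℤ), zpow_mul x (p : ℤ),
                  zpow_natCast, hA.2 x hx, one_zpow, mul_one]
          rw [this]
          exact zpow_mem hy1 u
        haveI : IsMulCommutative ↥(A1 ⊔ Subgroup.zpowers x) := by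
          refine ⟨⟨fun u v => Subtype.ext ?_⟩⟩
          exact congrArg (fun w : A => (w : G)) (hA.1.is_comm.comm
            ⟨u, sup_le hA1A (Subgroup.zpowers_le.2 hx) u.2⟩
            ⟨v, sup_le hA1A (Subgroup.zpowers_le.2 hx) v.2⟩)
        have hAn : A ≤ Subgroup.normalizer (A1 : Set G) := by
          intro z hz
          exact Subgroup.centralizer_le_normalizer _ (Subgroup.mem_centralizer_iff.2
            fun y hy => congrArg Subtype.val (hA.1.is_comm.comm ⟨y, hA1A hy⟩ ⟨z, hz⟩))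
        obtain ⟨u, hu, w, hw, huw⟩ : ∃ u ∈ A1, ∃ w ∈ Subgroup.zpowers x, u * w = a := by
          obtain ⟨u, hu, w, hw, h⟩ := Coprime.exists_mul_of_mem_sup'
            ((Subgroup.zpowers_le.2 hx).trans hAn) (sup_comm A1 (Subgroup.zpowers x) ▸ ha')
          exact ⟨u, hu, w, hw, h.symm⟩
        have hw1 : w ≠ 1 := fun h => haA1 (by rw [← huw, h, mul_one]; exact hu)
        have hwx : x ∈ Subgroup.zpowers w := by
          obtain ⟨i, hi⟩ := Subgroup.mem_zpowers_iff.1 hw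
          have hle : Subgroup.zpowers w ≤ Subgroup.zpowers x := Subgroup.zpowers_le.2 hw
          have hwA : w ∈ A := (Subgroup.zpowers_le.2 hx) hw
          have := Subgroup.eq_of_le_of_card_ge hle (by
            rw [Nat.card_zpowers, Nat.card_zpowers, orderOf_eq_prime (hA.2 w hwA) hw1]
            exact Nat.le_of_dvd hp.out.pos (orderOf_dvd_of_pow_eq_one (hA.2 x hx)))
          rw [this]; exact Subgroup.mem_zpowers x
        have hwmem : w ∈ A1 ⊔ Subgroup.zpowers a := by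
          rw [show w = u⁻¹ * a by rw [← huw]; group]
          exact mul_mem (Subgroup.mem_sup_left (inv_mem hu))
            (Subgroup.mem_sup_right (Subgroup.mem_zpowers a))
        exact (Subgroup.zpowers_le.2 hwmem) hwx
    · exact Subgroup.mem_sup_left (hA1max ⟨sup_le hA1A (Subgroup.zpowers_le.2 hx), ha'⟩ le_sup_left
        (Subgroup.mem_sup_right (Subgroup.mem_zpowers x)))
  have hA1card : p < Nat.card A1 := by
    have hnA1 : Subgroup.zpowers a ≤ Subgroup.normalizer (A1 : Set G) := by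
      intro z hz
      exact Subgroup.centralizer_le_normalizer _ (Subgroup.mem_centralizer_iff.2 fun y hy =>
        congrArg Subtype.val (hA.1.is_comm.comm ⟨y, hA1A hy⟩ ⟨z, (Subgroup.zpowers_le.2 haA) hz⟩))
    have h1 : Nat.card A ≤ Nat.card A1 * p := by
      let f : A1 × Subgroup.zpowers a → A := fun w =>
        ⟨w.1 * w.2, mul_mem (hA1A w.1.2) ((Subgroup.zpowers_le.2 haA) w.2.2)⟩
      have hf : Function.Surjective f := by
        intro x
        obtain ⟨u, hu, w, hw, h⟩ := Coprime.exists_mul_of_mem_sup' hnA1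
          (sup_comm A1 (Subgroup.zpowers a) ▸ hsup x.2)
        exact ⟨(⟨u, hu⟩, ⟨w, hw⟩), Subtype.ext h.symm⟩
      have := Nat.card_le_card_of_surjective f hf
      rwa [Nat.card_prod, hza] at this
    rw [hcard] at h1
    have h2 : p * p ≤ Nat.card A1 := Nat.le_of_mul_le_mul_right (by rw [← pow_two, ← pow_succ]; exact h1) hp.out.pos
    exact lt_of_lt_of_le (lt_mul_of_one_lt_left hp.out.pos hp.out.one_lt) h2
  haveI : IsMulCommutative A1 :=
    ⟨⟨fun u v => Subtype.ext (congrArg Subtype.val (hA.1.is_comm.comm ⟨u, hA1A u.2⟩ ⟨v, hA1A v.2⟩) : (u : G) * v = v * u)⟩⟩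
  have hA1N : A1 ≤ Subgroup.normalizer ((N ⊓ Subgroup.centralizer {a} : Subgroup G) : Set G) := by
    refine fun z hz => Subgroup.inf_normalizer_le_normalizer_inf ⟨hAN (hA1A hz), Subgroup.le_normalizer ?_⟩
    exact Subgroup.mem_centralizer_singleton_iff.2
      (congrArg Subtype.val (hA.1.is_comm.comm ⟨z, hA1A hz⟩ ⟨a, haA⟩))
  have hgen2 := Coprime.iSup_centralizer_eq (hnc A1 hA1A hA1card) hA1N (hcopA A1 hA1A _ inf_le_left)
  obtain ⟨b, ⟨hbA1, hb1⟩, hbD⟩ : ∃ b, (b ∈ A1 ∧ b ≠ 1) ∧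
      ¬ N ⊓ Subgroup.centralizer {a} ⊓ Subgroup.centralizer {b} ≤ D := by
    by_contra h
    push Not at h
    exact haD (hgen2 ▸ iSup₂_le fun b hb => h b hb)
  have hBA : Subgroup.zpowers a ⊔ Subgroup.zpowers b ≤ A :=
    sup_le (Subgroup.zpowers_le.2 haA) (Subgroup.zpowers_le.2 (hA1A hbA1))
  refine ⟨_, hBA, ?_, fun h => hbD (le_trans ?_ h)⟩
  · have hlt : Subgroup.zpowers a < Subgroup.zpowers a ⊔ Subgroup.zpowers b := by
      refine lt_of_le_of_ne le_sup_left fun h => ?_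
      have hb : b ∈ Subgroup.zpowers a := h ▸ Subgroup.mem_sup_right (Subgroup.mem_zpowers b)
      have := Subgroup.eq_of_le_of_card_ge (Subgroup.zpowers_le.2 hb) (by
        rw [hza, Nat.card_zpowers, orderOf_eq_prime (hA.2 b (hA1A hbA1)) hb1])
      exact haA1 ((Subgroup.zpowers_le.2 hbA1) (this ▸ Subgroup.mem_zpowers a))
    have h1 := card_lt_of_lt hlt
    rw [hza] at h1
    obtain ⟨k, -, hk⟩ := (Nat.dvd_prime_pow hp.out).1 (hcard ▸ Subgroup.card_dvd_of_le hBA)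
    rw [hk] at h1 ⊢
    exact Nat.pow_le_pow_right hp.out.pos
      ((Nat.pow_lt_pow_iff_right (a := p) (n := 1) (m := k) hp.out.one_lt).1 (by rwa [pow_one]))
  · rintro z ⟨⟨hz1, hza'⟩, hzb⟩
    have key : ∀ w : G, z * w = w * z → Subgroup.zpowers w ≤ Subgroup.centralizer {z} := fun w hw =>
      Subgroup.zpowers_le.2 (Subgroup.mem_centralizer_singleton_iff.2 hw.symm)
    have h2 := sup_le (key a (Subgroup.mem_centralizer_singleton_iff.1 hza'))
      (key b (Subgroup.mem_centralizer_singleton_iff.1 hzb))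
    refine ⟨hz1, Subgroup.mem_centralizer_iff.2 fun y hy => ?_⟩
    exact Subgroup.mem_centralizer_singleton_iff.1 (h2 hy)

theorem inf_ne_bot_of_big {A B₁ B₂ : Subgroup G} (hcard : Nat.card A = p ^ 3) (h1 : B₁ ≤ A)
    (h2 : B₂ ≤ A) (hc1 : p ^ 2 ≤ Nat.card B₁) (hc2 : p ^ 2 ≤ Nat.card B₂) : B₁ ⊓ B₂ ≠ ⊥ := by
  intro h
  let f : B₁ × B₂ → A := fun w => ⟨w.1 * w.2, mul_mem (h1 w.1.2) (h2 w.2.2)⟩
  have hf : Function.Injective f := by
    rintro ⟨⟨u, hu⟩, ⟨v, hv⟩⟩ ⟨⟨u', hu'⟩, ⟨v', hv'⟩⟩ he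
    have he' : u * v = u' * v' := congrArg Subtype.val he
    have h3 : u'⁻¹ * u ∈ B₁ ⊓ B₂ := Subgroup.mem_inf.2 ⟨mul_mem (inv_mem hu') hu, by
      rw [show u'⁻¹ * u = v' * v⁻¹ by
        rw [eq_mul_inv_iff_mul_eq, mul_assoc, he', inv_mul_cancel_left]]
      exact mul_mem hv' (inv_mem hv)⟩
    rw [h, Subgroup.mem_bot, inv_mul_eq_one] at h3
    subst h3
    rw [mul_right_inj] at he'
    subst he'
    rfl
  have h4 := Nat.card_le_card_of_injective f hf
  rw [Nat.card_prod, hcard] at h4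
  have h5 := (Nat.mul_le_mul hc1 hc2).trans h4
  rw [← pow_add] at h5
  have := (Nat.pow_le_pow_iff_right hp.out.one_lt).1 h5
  omega

/-- A `p'`-product. -/
theorem card_sup_coprime {H D : Subgroup G} (hHD : H ≤ Subgroup.normalizer (D : Set G))
    (hH : (Nat.card H).Coprime p) (hD : (Nat.card D).Coprime p) :
    (Nat.card ↥(H ⊔ D)).Coprime p := by
  have hle : H ⊔ D ≤ Subgroup.normalizer (D : Set G) := sup_le hHD Subgroup.le_normalizer
  haveI : (D.subgroupOf (H ⊔ D)).Normal :=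
    (Subgroup.normal_subgroupOf_iff_le_normalizer le_sup_right).2 hle
  have h1 := Cores.card_sup_dvd_mul (H.subgroupOf (H ⊔ D)) (D.subgroupOf (H ⊔ D))
  rw [← Subgroup.subgroupOf_sup le_sup_left le_sup_right, Subgroup.subgroupOf_self, Subgroup.card_top,
    Nat.card_congr (Subgroup.subgroupOfEquivOfLe (le_sup_left : H ≤ H ⊔ D)).toEquiv,
    Nat.card_congr (Subgroup.subgroupOfEquivOfLe (le_sup_right : D ≤ H ⊔ D)).toEquiv] at h1
  exact (hH.mul_left hD).coprime_dvd_left h1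

theorem transitivity (E : Subgroup G) (hEp : IsPGroup p E) (hEc : IsMulCommutative E)
    (hE3 : ¬ Cfsg.PRankLE p 2 E)
    (hEfull : ∀ x ∈ Subgroup.centralizer (E : Set G), IsPGroup p (Subgroup.zpowers x) → x ∈ E)
    (hloc : ∀ T : Subgroup G, IsPGroup p T → T ≠ ⊥ → Cfsg.IsPConstrained p ↥(Subgroup.normalizer (T : Set G)))
    (h2 : p = 2 → ∀ P : Subgroup G, IsPGroup p P → ∀ x ∈ P, ∀ y ∈ P, ∀ z ∈ P, Commute ⁅x, y⁆ z)
    (q : ℕ) [hq : Fact q.Prime] (hqp : q ≠ p) :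
    ∀ Q₁ ∈ Cfsg.maxInvSubgroups ⊤ E {q}, ∀ Q₂ ∈ Cfsg.maxInvSubgroups ⊤ E {q},
        ∃ k ∈ Cfsg.piCoreOf (Cfsg.primesNotDvd p) (Subgroup.centralizer (E : Set G)),
          Q₂ = Q₁.map (MulAut.conj k).toMonoidHom := by
  set K := Cfsg.piCoreOf (Cfsg.primesNotDvd p) (Subgroup.centralizer (E : Set G)) with hK
  have hKC : K ≤ Subgroup.centralizer (E : Set G) := Cores.piCoreOf_le _
  obtain ⟨A, hAE, hA, hAcard⟩ : ∃ A : Subgroup G, A ≤ E ∧ Cfsg.IsElementaryAbelian p A ∧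
      Nat.card A = p ^ 3 := by
    rw [PGroup.pRankLE_iff_elemAb] at hE3
    push Not at hE3
    obtain ⟨A0, hA0, hlt⟩ := hE3
    obtain ⟨j, hj⟩ := IsPGroup.iff_card.1 (hEp.to_subgroup A0)
    rw [hj] at hlt
    have hj2 := (Nat.pow_lt_pow_iff_right hp.out.one_lt).1 hlt
    obtain ⟨B, hBA, hB, hBcard⟩ := PGroup.exists_elemAb_card_eq hA0 (m := 3)
      (hj ▸ Nat.pow_le_pow_right hp.out.pos (by omega))
    refine ⟨B.map E.subtype, Subgroup.map_subtype_le B, ⟨?_, ?_⟩, ?_⟩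
    · haveI := hB.1; infer_instance
    · rintro _ ⟨b, hb, rfl⟩
      rw [← map_pow, hB.2 b hb, map_one]
    · rw [Subgroup.card_map_of_injective E.subtype_injective, hBcard]
  have hInvQ : ∀ Q : Subgroup G, (∀ r : ℕ, r.Prime → r ∣ Nat.card Q → r ∈ ({q} : Set ℕ)) →
      IsPGroup q Q := by
    intro Q h
    refine IsPGroup.of_card (n := (Nat.card Q).primeFactorsList.length) ?_
    exact Nat.eq_prime_pow_of_unique_prime_dvd Nat.card_pos.ne' fun hr h' => h _ hr h' 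
  have hmapInv : ∀ k ∈ K, ∀ Y ∈ Cfsg.invSubgroups ⊤ E {q},
      Y.map (MulAut.conj k).toMonoidHom ∈ Cfsg.invSubgroups ⊤ E {q} := by
    rintro k hk Y ⟨-, hYq, hYE⟩
    refine ⟨le_top, fun r hr h => hYq r hr ?_, ?_⟩
    · rwa [Subgroup.card_map_of_injective (MulAut.conj k).injective] at h
    · intro e he
      have hek : Commute e k := Subgroup.mem_centralizer_iff.1 (hKC hk) e he
      have h3 := (Subgroup.le_normalizer_map (H := Y) (MulAut.conj k).toMonoidHom)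
        ⟨e, hYE he, rfl⟩
      have h4 : (MulAut.conj k).toMonoidHom e = e := by
        change k * e * k⁻¹ = e
        rw [← hek.eq, mul_inv_cancel_right]
      rwa [h4] at h3
  have hmapMax : ∀ k ∈ K, ∀ Y ∈ Cfsg.maxInvSubgroups ⊤ E {q},
      Y.map (MulAut.conj k).toMonoidHom ∈ Cfsg.maxInvSubgroups ⊤ E {q} := by
    rintro k hk Y ⟨hY, hYmax⟩
    refine ⟨hmapInv k hk Y hY, fun R hR hle => ?_⟩
    have h1 := hYmax _ (hmapInv k⁻¹ (inv_mem hk) R hR) (by
      intro y hy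
      refine ⟨k * y * k⁻¹, hle ⟨y, hy, rfl⟩, ?_⟩
      change k⁻¹ * (k * y * k⁻¹) * k⁻¹⁻¹ = y
      group)
    rw [← h1, Subgroup.map_map]
    convert (Subgroup.map_id R).symm using 2
    ext z
    change k * (k⁻¹ * z * k⁻¹⁻¹) * k⁻¹ = z
    group
  suffices h : ∀ n, ∀ Q₁ ∈ Cfsg.maxInvSubgroups ⊤ E {q}, ∀ Q₂ ∈ Cfsg.maxInvSubgroups ⊤ E {q},
      Nat.card G - Nat.card ↥(Q₁ ⊓ Q₂) = n → ∃ k ∈ K, Q₂ = Q₁.map (MulAut.conj k).toMonoidHom from
    fun Q₁ h₁ Q₂ h₂ => h _ Q₁ h₁ Q₂ h₂ rfl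
  intro n
  induction n using Nat.strong_induction_on with
  | _ n ih =>
  intro Q₁ h₁ Q₂ h₂ hn
  by_cases hle : Q₁ ≤ Q₂
  · exact ⟨1, one_mem _, by rw [h₁.2 Q₂ h₂.1 hle, map_one]; exact (Subgroup.map_id Q₁).symm⟩
  by_cases hle' : Q₂ ≤ Q₁
  · exact absurd (h₂.2 Q₁ h₁.1 hle').le hle
  set D := Q₁ ⊓ Q₂ with hD
  have hDlt₁ : D < Q₁ := lt_of_le_of_ne inf_le_left fun h => hle (h ▸ inf_le_right)
  have hDlt₂ : D < Q₂ := lt_of_le_of_ne inf_le_right fun h => hle' (h ▸ inf_le_left)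
  have hbig : ∀ Y Z : Subgroup G, Z ≤ Y → Nat.card D < Nat.card Z → Nat.card G - Nat.card Y < n := by
    intro Y Z hZY hlt
    have := Nat.le_of_dvd Nat.card_pos (Subgroup.card_dvd_of_le hZY)
    have := Nat.le_of_dvd Nat.card_pos Y.card_subgroup_dvd_card
    omega
  have hQp₁ := hInvQ Q₁ h₁.1.2.1
  have hQp₂ := hInvQ Q₂ h₂.1.2.1
  have hcopq : ∀ Y : Subgroup G, IsPGroup q Y → (Nat.card Y).Coprime p := fun Y hY => by
    obtain ⟨i, hi⟩ := IsPGroup.iff_card.1 hY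
    rw [hi]; exact ((Nat.coprime_primes hq.out hp.out).2 hqp).pow_left i
  have hEnormD : E ≤ Subgroup.normalizer (D : Set G) :=
    (le_inf h₁.1.2.2 h₂.1.2.2).trans Subgroup.inf_normalizer_le_normalizer_inf
  have hEnormN : ∀ Y : Subgroup G, E ≤ Subgroup.normalizer (Y : Set G) →
      E ≤ Subgroup.normalizer ((Y ⊓ Subgroup.normalizer (D : Set G) : Subgroup G) : Set G) :=
    fun Y hY => (le_inf hY (hEnormD.trans Subgroup.le_normalizer)).trans
      Subgroup.inf_normalizer_le_normalizer_inf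
  set N₁ := Q₁ ⊓ Subgroup.normalizer (D : Set G)
  set N₂ := Q₂ ⊓ Subgroup.normalizer (D : Set G)
  obtain ⟨B₁, hB₁A, hB₁c, hB₁D⟩ := exists_big_fixed A N₁ D hA hAcard
    (hAE.trans (hEnormN Q₁ h₁.1.2.2)) (hcopq _ (hQp₁.to_le inf_le_left))
    (PGroup.lt_inf_normalizer hQp₁ hDlt₁)
  obtain ⟨B₂, hB₂A, hB₂c, hB₂D⟩ := exists_big_fixed A N₂ D hA hAcard
    (hAE.trans (hEnormN Q₂ h₂.1.2.2)) (hcopq _ (hQp₂.to_le inf_le_left))
    (PGroup.lt_inf_normalizer hQp₂ hDlt₂)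
  obtain ⟨e, he, he1⟩ : ∃ e ∈ B₁ ⊓ B₂, e ≠ 1 := by
    by_contra h
    push Not at h
    exact inf_ne_bot_of_big hAcard hB₁A hB₂A hB₁c hB₂c ((Subgroup.eq_bot_iff_forall _).2 h)
  have heE : e ∈ E := hAE (hB₁A he.1)
  -- the local subgroup
  set T := Subgroup.zpowers e
  have hTp : IsPGroup p T := hEp.to_le (Subgroup.zpowers_le.2 heE)
  set Hl := Subgroup.normalizer (T : Set G) with hHl
  have hTC : Subgroup.centralizer ({e} : Set G) ≤ Hl := by
    rw [← Subgroup.centralizer_closure, ← Subgroup.zpowers_eq_closure]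
    exact Subgroup.centralizer_le_normalizer _
  have hEe : E ≤ Subgroup.centralizer ({e} : Set G) := fun f hf =>
    Subgroup.mem_centralizer_singleton_iff.2 (congrArg Subtype.val (hEc.is_comm.comm ⟨f, hf⟩ ⟨e, heE⟩))
  have hEH : E ≤ Hl := hEe.trans hTC
  set L := (Cfsg.pPrimeCore p Hl).map Hl.subtype
  have hLp : (Nat.card L).Coprime p := by
    rw [Subgroup.card_map_of_injective Hl.subtype_injective]
    exact Cores.pPrimeCore_coprime
  have hkey : ∀ Y : Subgroup G, Y ≤ Hl → (Nat.card Y).Coprime p →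
      E ≤ Subgroup.normalizer (Y : Set G) → Y ≤ L := by
    intro Y hY hYp hEY
    have h1 := InvCore.invariant_le_pPrimeCore (G := Hl)
      (hloc T hTp (fun h => he1 (Subgroup.mem_bot.1 (h ▸ Subgroup.mem_zpowers e))))
      (fun h2' P hP x hx y hy z hz => by
        have h := h2 h2' (P.map Hl.subtype) (hP.map _) x ⟨x, hx, rfl⟩ y ⟨y, hy, rfl⟩ z ⟨z, hz, rfl⟩
        exact Subtype.ext h.eq)
      (E := E.subgroupOf Hl) hEp.comap_subtype
      (fun x hx hxp => by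
        refine hEfull _ (Subgroup.mem_centralizer_iff.2 fun f hf =>
          congrArg Subtype.val (Subgroup.mem_centralizer_iff.1 hx ⟨f, hEH hf⟩ hf)) ?_
        have := hxp.map Hl.subtype
        rwa [MonoidHom.map_zpowers] at this)
      (Q := Y.subgroupOf Hl) (hYp.coprime_dvd_left (Subgroup.card_comap_dvd_of_injective Y _ Hl.subtype_injective))
      (fun x hx => by
        refine Subgroup.mem_normalizer_iff.2 fun t => ?_
        exact Subgroup.mem_normalizer_iff.1 (hEY hx) t)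
    intro y hy
    exact ⟨⟨y, hY hy⟩, h1 hy, rfl⟩
  have hC₁ : N₁ ⊓ Subgroup.centralizer {e} ≤ L :=
    hkey _ (inf_le_right.trans hTC) ((hcopq _ (hQp₁.to_le (inf_le_left.trans inf_le_left))))
      ((le_inf (hEnormN Q₁ h₁.1.2.2) (hEe.trans Subgroup.le_normalizer)).trans
        Subgroup.inf_normalizer_le_normalizer_inf)
  have hC₂ : N₂ ⊓ Subgroup.centralizer {e} ≤ L :=
    hkey _ (inf_le_right.trans hTC) ((hcopq _ (hQp₂.to_le (inf_le_left.trans inf_le_left))))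
      ((le_inf (hEnormN Q₂ h₂.1.2.2) (hEe.trans Subgroup.le_normalizer)).trans
        Subgroup.inf_normalizer_le_normalizer_inf)
  set M := (L ⊓ Subgroup.normalizer (D : Set G)) ⊔ D
  have hMp : (Nat.card M).Coprime p := card_sup_coprime inf_le_right
    (hLp.coprime_dvd_left (Subgroup.card_dvd_of_le inf_le_left)) (hcopq D (hQp₁.to_le inf_le_left))
  have hEL : E ≤ Subgroup.normalizer (L : Set G) := by
    refine hEH.trans ?_
    intro x hx
    have h1 := (Cfsg.pPrimeCore p Hl).le_normalizer_map Hl.subtype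
    rw [Subgroup.normalizer_eq_top_iff.2 inferInstance] at h1
    exact h1 ⟨⟨x, hx⟩, Subgroup.mem_top _, rfl⟩
  have hEM : E ≤ Subgroup.normalizer (M : Set G) :=
    (le_inf ((le_inf hEL (hEnormD.trans Subgroup.le_normalizer)).trans
      Subgroup.inf_normalizer_le_normalizer_inf) hEnormD).trans
      (Subgroup.normalizer_inf_normalizer_le_normalizer_sup _ _)
  obtain ⟨i, hi⟩ := IsPGroup.iff_card.1 hEp
  have hcopEM : (Nat.card E).Coprime (Nat.card M) := hi ▸ hMp.symm.pow_left i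
  have hU : ∀ Q : Subgroup G, Q ∈ Cfsg.maxInvSubgroups ⊤ E {q} → D ≤ Q →
      (Q ⊓ Subgroup.normalizer (D : Set G)) ⊓ Subgroup.centralizer {e} ≤ L →
      ¬ (Q ⊓ Subgroup.normalizer (D : Set G)) ⊓ Subgroup.centralizer {e} ≤ D →
      ∃ (P : Sylow q M) (U : Subgroup G), U ≤ Q ∧ U ≤ (P : Subgroup M).map M.subtype ∧
        Nat.card D < Nat.card U ∧
        E ≤ Subgroup.normalizer ((P : Subgroup M).map M.subtype : Set G) := by
    intro Q hQ hDQ hL hnD
    set X := (Q ⊓ Subgroup.normalizer (D : Set G)) ⊓ Subgroup.centralizer {e}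
    have hXQ : X ≤ Q := inf_le_left.trans inf_le_left
    set U := X ⊔ D
    have hUM : U ≤ M := sup_le
      ((le_inf hL (inf_le_left.trans inf_le_right)).trans le_sup_left) le_sup_right
    have hEU : E ≤ Subgroup.normalizer (U : Set G) :=
      (le_inf ((le_inf (hEnormN Q hQ.1.2.2) (hEe.trans Subgroup.le_normalizer)).trans
        Subgroup.inf_normalizer_le_normalizer_inf) hEnormD).trans
        (Subgroup.normalizer_inf_normalizer_le_normalizer_sup _ _)
    haveI := hEp.isNilpotent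
    obtain ⟨P, hP1, hP2⟩ := Coprime.exists_invariant_sylow_ge (p := q) hEM hcopEM
      (Or.inl inferInstance) hUM hEU ((hInvQ Q hQ.1.2.1).to_le (sup_le hXQ hDQ))
    exact ⟨P, U, sup_le hXQ hDQ, hP1, card_lt_of_lt (lt_of_le_of_ne le_sup_right
      fun h => hnD (h ▸ le_sup_left)), hP2⟩
  have hsub : ∀ B : Subgroup G, e ∈ B → Subgroup.centralizer (B : Set G) ≤ Subgroup.centralizer {e} :=
    fun B hB => Subgroup.centralizer_le (Set.singleton_subset_iff.2 hB)
  obtain ⟨P₁, U₁, hU₁Q, hU₁P, hU₁c, hEP₁⟩ := hU Q₁ h₁ inf_le_left hC₁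
    fun h => hB₁D ((inf_le_inf_left _ (hsub B₁ he.1)).trans h)
  obtain ⟨P₂, U₂, hU₂Q, hU₂P, hU₂c, hEP₂⟩ := hU Q₂ h₂ inf_le_right hC₂
    fun h => hB₂D ((inf_le_inf_left _ (hsub B₂ he.2)).trans h)
  haveI := hEp.isNilpotent
  obtain ⟨c, hc, hcP⟩ := Coprime.exists_centralizer_conj_sylow hEM hcopEM (Or.inl inferInstance)
    P₁ P₂ hEP₁ hEP₂
  have hcK : c ∈ K := mem_piCore_of_coprime E hEp hEc hEfull hc.2
    (hMp.coprime_dvd_left (Subgroup.orderOf_dvd_natCard M hc.1))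
  set S₁ := (P₁ : Subgroup M).map M.subtype
  obtain ⟨Q₃, hS₁Q₃, hQ₃⟩ := Finite.exists_le_maximal
    (p := fun Y : Subgroup G => Y ∈ Cfsg.invSubgroups ⊤ E {q}) (a := S₁)
    ⟨le_top, fun r hr h => by
      obtain ⟨j, hj⟩ := IsPGroup.iff_card.1 (P₁.isPGroup'.map M.subtype)
      rw [hj] at h
      exact (Nat.prime_dvd_prime_iff_eq hr hq.out).1 (hr.dvd_of_dvd_pow h), hEP₁⟩
  have h₃ : Q₃ ∈ Cfsg.maxInvSubgroups ⊤ E {q} :=
    ⟨hQ₃.prop, fun R hR hle => le_antisymm (hQ₃.le_of_ge hR hle) hle⟩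
  set Q₄ := Q₂.map (MulAut.conj c⁻¹).toMonoidHom
  have h₄ : Q₄ ∈ Cfsg.maxInvSubgroups ⊤ E {q} := hmapMax _ (inv_mem hcK) Q₂ h₂
  have hU₂Q₃ : U₂.map (MulAut.conj c⁻¹).toMonoidHom ≤ Q₃ := by
    rintro _ ⟨u, hu, rfl⟩
    apply hS₁Q₃
    have hu' : u ∈ MulAut.conj c • S₁ := hcP ▸ hU₂P hu
    rw [Coprime.mem_conj_smul] at hu'
    change c⁻¹ * u * c⁻¹⁻¹ ∈ S₁
    rwa [inv_inv]
  obtain ⟨k₁, hk₁, e₁⟩ := ih _ (hbig (Q₁ ⊓ Q₃) U₁ (le_inf hU₁Q (hU₁P.trans hS₁Q₃)) hU₁c)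
    Q₁ h₁ Q₃ h₃ rfl
  obtain ⟨k₂, hk₂, e₂⟩ := ih _ (hbig (Q₃ ⊓ Q₄) (U₂.map (MulAut.conj c⁻¹).toMonoidHom)
      (le_inf hU₂Q₃ (Subgroup.map_mono hU₂Q))
      (by rwa [Subgroup.card_map_of_injective (MulAut.conj c⁻¹).injective]))
    Q₃ h₃ Q₄ h₄ rfl
  refine ⟨c * k₂ * k₁, mul_mem (mul_mem hcK hk₂) hk₁, ?_⟩
  have key : ∀ (u v : G) (Y : Subgroup G),
      (Y.map (MulAut.conj v).toMonoidHom).map (MulAut.conj u).toMonoidHom =
        Y.map (MulAut.conj (u * v)).toMonoidHom := fun u v Y => by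
    rw [Subgroup.map_map]; congr 1; ext z
    change u * (v * z * v⁻¹) * u⁻¹ = (u * v) * z * (u * v)⁻¹
    group
  rw [← key, ← e₁, ← key, ← e₂]
  change Q₂ = (Q₂.map (MulAut.conj c⁻¹).toMonoidHom).map (MulAut.conj c).toMonoidHom
  rw [key, mul_inv_cancel, map_one]
  exact (Subgroup.map_id Q₂).symm

end Cfsg.Agent.OddPre.TransMain
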