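import Cfsg.Agent.H4.ZJ
import Cfsg.Agent.OddPre.PStable
import Cfsg.Agent.PSolv.Factorization
import Cfsg.Agent.OddLocal.PConstraint

/-!
The ZJ theorem for groups of odd order.
-/

set_option autoImplicit false

open scoped commutatorElement

namespace Cfsg.Agent.OddPre.ZJOdd

variable {G : Type*} [Group G] [Finite G] [Group.IsSolvable G] {p : ℕ} [hp : Fact p.Prime]

omit [Group.IsSolvable G] in
theorem centerThompsonOf_le (P : Subgroup G) : Cfsg.centerThompsonOf p P ≤ P :=
  inf_le_left.trans (Subgroup.map_subtype_le _)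

theorem zjStable (hp2 : p ≠ 2) (hodd : Odd (Nat.card G)) (S : Subgroup G) :
    H4.ZJStable p S := fun B _ hB a _ ha =>
  Quad.quad_map_mem_pCore hp2 hodd B hB _ rfl a ha

omit [Finite G] [Group.IsSolvable G] in
theorem map_centerThompsonOf {H : Type*} [Group H] (f : G →* H) (P : Subgroup G)
    (h : P ⊓ f.ker = ⊥) :
    (Cfsg.centerThompsonOf p P).map f = Cfsg.centerThompsonOf p (P.map f) := by
  unfold Cfsg.centerThompsonOf
  have hJ : Cfsg.thompsonSubgroupOf p P ⊓ f.ker = ⊥ :=
    le_bot_iff.1 (h ▸ inf_le_inf_right _ (Subgroup.map_subtype_le _))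
  rw [PSolv.map_inf_centralizer_of_inj f _ hJ, PSolv.map_thompsonSubgroupOf_of_inj f P h]

theorem center_thompson_sup_core_normal (hodd : Odd (Nat.card G)) (S : Sylow p G) :
    (Cfsg.centerThompsonOf p (S : Subgroup G) ⊔ Cfsg.pPrimeCore p G).Normal := by
  by_cases hp2 : p = 2
  · have hS : (S : Subgroup G) = ⊥ := by
      obtain ⟨k, hk⟩ := IsPGroup.iff_card.1 S.isPGroup'
      rw [← Subgroup.card_eq_one]
      rcases k with _ | k
      · simpa using hk
      · exfalso
        have h2 : 2 ∣ Nat.card G := by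
          refine dvd_trans ?_ (Subgroup.card_subgroup_dvd_card (S : Subgroup G))
          rw [hk, hp2]
          exact dvd_pow_self 2 (Nat.succ_ne_zero k)
        exact (Nat.not_even_iff_odd.2 hodd) (even_iff_two_dvd.2 h2)
    have hZ : Cfsg.centerThompsonOf p (S : Subgroup G) = ⊥ :=
      le_bot_iff.1 (hS ▸ centerThompsonOf_le (p := p) (S : Subgroup G))
    rw [hZ, bot_sup_eq]
    infer_instance
  set N := Cfsg.pPrimeCore p G
  have hker : (S : Subgroup G) ⊓ (QuotientGroup.mk' N).ker = ⊥ := by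
    rw [QuotientGroup.ker_mk']
    exact PSolv.sylow_inf_eq_bot Cores.pPrimeCore_coprime S.isPGroup'
  let T : Sylow p (G ⧸ N) := S.mapSurjective (QuotientGroup.mk'_surjective N)
  have hoddQ : Odd (Nat.card (G ⧸ N)) := by
    rw [← Subgroup.index_eq_card]
    exact hodd.of_dvd_nat (Subgroup.index_dvd_card N)
  have hn : (Cfsg.centerThompsonOf p (T : Subgroup (G ⧸ N))).Normal :=
    H4.centerThompsonOf_normal hp2 OddLocal.charP_quotient_pPrimeCore T
      (zjStable hp2 hoddQ _)
  have heq : (Cfsg.centerThompsonOf p (S : Subgroup G)).map (QuotientGroup.mk' N) =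
      Cfsg.centerThompsonOf p (T : Subgroup (G ⧸ N)) := by
    rw [map_centerThompsonOf _ _ hker]
    rfl
  have h1 := hn.comap (QuotientGroup.mk' N)
  rwa [← heq, Subgroup.comap_map_eq, QuotientGroup.ker_mk'] at h1

end Cfsg.Agent.OddPre.ZJOdd
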